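import Mathlib
import Cfsg.Agent.Lib.Helper73.PGroupBasic
import Cfsg.Agent.Lib.Helper73.CyclicIndexTwo
import Cfsg.Agent.Lib.Helper73.MaximalClassTwo
import Cfsg.Agent.Lib.Helper73.Suzuki2
import Cfsg.Agent.Lib.Helper73.ExpP

/-!
# Tools for `p`-groups with cyclic normal subgroups

* `not_isCyclic_of_pow_prime`: a group with two independent elements of order dividing `p` is not
  cyclic.
* `exists_zpowers_eq_of_isCyclic`: a cyclic subgroup is `zpowers a`.
* `exists_normal_card_sq`: a `p`-group of order at least `p ^ 2` has a normal subgroup of order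
  `p ^ 2`.
* `exists_normal_step`: between normal subgroups `N < C` of a `p`-group there is a normal `N⁺`
  with `|N⁺ : N| = p`.
* `exists_normal_four_of_modular`: a normal subgroup of modular type produces a normal abelian
  non-cyclic subgroup.
-/

set_option autoImplicit false

namespace Cfsg.Agent.Lib.Helper73

open Cfsg.Agent.Lib.Helper1

/-- A finite group containing `x ≠ 1` and `y ∉ ⟨x⟩` with `x ^ p = y ^ p = 1` is not cyclic. -/
theorem not_isCyclic_of_pow_prime {K : Type*} [Group K] [Finite K] {p : ℕ} (hp : p.Prime)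
    (x y : K) (hx : x ^ p = 1) (hx1 : x ≠ 1) (hy : y ^ p = 1) (hy' : y ∉ Subgroup.zpowers x) :
    ¬ IsCyclic K := by
  classical
  intro hc
  have : Fintype K := Fintype.ofFinite K
  haveI : Fact p.Prime := ⟨hp⟩
  have hox : orderOf x = p := orderOf_eq_prime hx hx1
  have h1 := IsCyclic.card_pow_eq_one_le (α := K) hp.pos
  have hsub : insert y ((Finset.range p).image (fun i => x ^ i)) ⊆
      Finset.univ.filter (fun a : K => a ^ p = 1) := by
    intro a ha
    rw [Finset.mem_insert, Finset.mem_image] at ha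
    rw [Finset.mem_filter]
    refine ⟨Finset.mem_univ _, ?_⟩
    rcases ha with rfl | ⟨i, -, rfl⟩
    · exact hy
    · rw [← pow_mul, mul_comm, pow_mul, hx, one_pow]
  have hcard : (insert y ((Finset.range p).image (fun i => x ^ i))).card = p + 1 := by
    rw [Finset.card_insert_of_notMem, Finset.card_image_of_injOn, Finset.card_range]
    · intro i hi j hj hij
      apply pow_injOn_Iio_orderOf (x := x)
      · rw [hox]; exact Finset.mem_range.mp hi
      · rw [hox]; exact Finset.mem_range.mp hj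
      · exact hij
    · intro h
      rw [Finset.mem_image] at h
      obtain ⟨i, -, rfl⟩ := h
      exact hy' (Subgroup.npow_mem_zpowers x i)
  have h2 := Finset.card_le_card hsub
  rw [hcard] at h2
  omega

/-- A cyclic subgroup is generated by one element. -/
theorem exists_zpowers_eq_of_isCyclic {P : Type*} [Group P] (N : Subgroup P) (hN : IsCyclic N) :
    ∃ a : P, N = Subgroup.zpowers a := by
  obtain ⟨g, hg⟩ := hN.exists_generator
  refine ⟨(g : P), le_antisymm ?_ ?_⟩
  · intro x hx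
    obtain ⟨k, hk⟩ := Subgroup.mem_zpowers_iff.mp (hg ⟨x, hx⟩)
    have h1 : (g : P) ^ k = x := by
      have := congrArg Subtype.val hk
      rwa [Subgroup.coe_zpow] at this
    rw [← h1]
    exact Subgroup.zpow_mem_zpowers _ k
  · rw [Subgroup.zpowers_le]
    exact g.2

/-- A finite `p`-group has a central element of order `p` if it is nontrivial. -/
theorem exists_central_orderOf_eq {Q : Type*} [Group Q] [Finite Q] {p : ℕ} [Fact p.Prime]
    (hQ : IsPGroup p Q) [Nontrivial Q] :
    ∃ z : Q, (∀ s : Q, s * z = z * s) ∧ orderOf z = p := by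
  have hZnt : Nontrivial (Subgroup.center Q) := hQ.center_nontrivial
  have hZdvd : p ∣ Nat.card (Subgroup.center Q) := by
    obtain ⟨k, hk⟩ := (hQ.to_subgroup (Subgroup.center Q)).exists_card_eq
    rcases Nat.eq_zero_or_pos k with h0 | hpos
    · rw [h0, pow_zero] at hk
      have := Finite.one_lt_card (α := Subgroup.center Q)
      omega
    · rw [hk]
      exact dvd_pow_self p (by omega)
  obtain ⟨z, hz⟩ := exists_prime_orderOf_dvd_card' p hZdvd
  refine ⟨(z : Q), Subgroup.mem_center_iff.mp z.2, ?_⟩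
  rw [Subgroup.orderOf_coe, hz]

/-- Between normal subgroups `N < C` of a finite `p`-group there is a normal subgroup `N⁺` with
`N ≤ N⁺ ≤ C` and `|N⁺| = |N| * p`. -/
theorem exists_normal_step {P : Type*} [Group P] [Finite P] {p : ℕ} [Fact p.Prime]
    (hP : IsPGroup p P) (N C : Subgroup P) [hN : N.Normal] [hC : C.Normal] (hNC : N ≤ C)
    (hne : N ≠ C) :
    ∃ M : Subgroup P, M.Normal ∧ N ≤ M ∧ M ≤ C ∧ Nat.card M = Nat.card N * p := by
  have hp : p.Prime := Fact.out
  have hCq : (C.map (QuotientGroup.mk' N)).Normal :=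
    Subgroup.Normal.map hC _ (QuotientGroup.mk'_surjective N)
  have hCne : C.map (QuotientGroup.mk' N) ≠ ⊥ := by
    intro h
    apply hne
    apply le_antisymm hNC
    intro c hc
    have h1 : (QuotientGroup.mk' N) c ∈ C.map (QuotientGroup.mk' N) :=
      Subgroup.mem_map_of_mem _ hc
    rw [h, Subgroup.mem_bot] at h1
    exact (QuotientGroup.eq_one_iff c).mp h1
  obtain ⟨w, hwC, hw1, hwc⟩ :=
    exists_central_mem_of_normal (hP.to_quotient N) (C.map (QuotientGroup.mk' N)) hCne
  obtain ⟨k, hk⟩ := IsPGroup.iff_orderOf.mp (hP.to_quotient N) w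
  have hk0 : k ≠ 0 := by
    rintro rfl
    rw [pow_zero, orderOf_eq_one_iff] at hk
    exact hw1 hk
  obtain ⟨v, hv⟩ : ∃ v : P ⧸ N, v = w ^ (p ^ (k - 1)) := ⟨_, rfl⟩
  have hvo : orderOf v = p := by
    rw [hv, orderOf_pow_of_dvd (pow_ne_zero _ hp.ne_zero)
      (by rw [hk]; exact pow_dvd_pow p (by omega)), hk, Nat.pow_div (by omega) hp.pos]
    have : k - (k - 1) = 1 := by omega
    rw [this, pow_one]
  have hvC : v ∈ C.map (QuotientGroup.mk' N) := by
    rw [hv]; exact Subgroup.pow_mem _ hwC _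
  have hvc : ∀ s : P ⧸ N, s * v = v * s := by
    intro s
    rw [hv]
    exact ((show Commute s w from hwc s).pow_right _).eq
  haveI hvN : (Subgroup.zpowers v).Normal := zpowers_normal_of_central hvc
  refine ⟨(Subgroup.zpowers v).comap (QuotientGroup.mk' N), Subgroup.Normal.comap hvN _, ?_, ?_, ?_⟩
  · intro x hx
    rw [Subgroup.mem_comap]
    have : (QuotientGroup.mk' N) x = 1 := (QuotientGroup.eq_one_iff x).mpr hx
    rw [this]
    exact Subgroup.one_mem _
  · intro x hx
    rw [Subgroup.mem_comap] at hx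
    have h1 : (QuotientGroup.mk' N) x ∈ C.map (QuotientGroup.mk' N) := by
      have : Subgroup.zpowers v ≤ C.map (QuotientGroup.mk' N) := by
        rw [Subgroup.zpowers_le]; exact hvC
      exact this hx
    obtain ⟨c, hc, hcx⟩ := Subgroup.mem_map.mp h1
    have h2 : c⁻¹ * x ∈ N := by
      rw [← QuotientGroup.eq]
      exact hcx
    have : x = c * (c⁻¹ * x) := by group
    rw [this]
    exact C.mul_mem hc (hNC h2)
  · rw [card_comap_quotient_mk, Nat.card_zpowers, hvo]

/-- A finite `p`-group of order `p ^ k` with `2 ≤ k` has a normal subgroup of order `p ^ 2`. -/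
theorem exists_normal_card_sq {P : Type*} [Group P] [Finite P] {p : ℕ} [Fact p.Prime]
    (hP : IsPGroup p P) {k : ℕ} (hk : 2 ≤ k) (hcard : Nat.card P = p ^ k) :
    ∃ M : Subgroup P, M.Normal ∧ Nat.card M = p ^ 2 := by
  have hp : p.Prime := Fact.out
  have hlt : ∀ M : Subgroup P, Nat.card M < p ^ 2 → M ≠ ⊤ := by
    rintro M hM rfl
    rw [Subgroup.card_top, hcard] at hM
    have := Nat.pow_le_pow_right hp.pos hk
    omega
  obtain ⟨M₁, hM₁n, -, -, hM₁c⟩ := exists_normal_step hP ⊥ ⊤ bot_le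
    (by
      intro h
      have h1 : Nat.card (⊥ : Subgroup P) = Nat.card (⊤ : Subgroup P) := by rw [h]
      rw [Subgroup.card_bot, Subgroup.card_top, hcard] at h1
      have := Nat.one_lt_pow (n := k) (by omega) hp.one_lt
      omega)
  rw [Subgroup.card_bot, one_mul] at hM₁c
  haveI := hM₁n
  obtain ⟨M₂, hM₂n, -, -, hM₂c⟩ := exists_normal_step hP M₁ ⊤ le_top
    (hlt M₁ (by
      rw [hM₁c]
      calc p = p ^ 1 := (pow_one p).symm
        _ < p ^ 2 := Nat.pow_lt_pow_right hp.one_lt (by norm_num)))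
  exact ⟨M₂, hM₂n, by rw [hM₂c, hM₁c, pow_two]⟩

/-- A normal subgroup `K` of modular type (`K = ⟨a⟩ ∪ ⟨a⟩b` with `⟨a⟩` normal of order
`2 ^ (l + 2)`, `l ≥ 1`, `b ^ 2 = 1` and `b a b⁻¹ = a ^ (1 + 2 ^ (l + 1))`) gives a normal abelian
non-cyclic subgroup. -/
theorem exists_normal_four_of_modular {P : Type*} [Group P] [Finite P] (K : Subgroup P)
    [hK : K.Normal] (a b : P) (l : ℕ) (hl : 1 ≤ l) (ha : orderOf a = 2 ^ (l + 2))
    (haN : (Subgroup.zpowers a).Normal) (hbK : b ∈ K) (hb : b ∉ Subgroup.zpowers a)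
    (hb2 : b ^ 2 = 1) (hba : b * a * b⁻¹ = a ^ (1 + 2 ^ (l + 1)))
    (hcos : ∀ t ∈ K, t ∉ Subgroup.zpowers a → t * b ∈ Subgroup.zpowers a) :
    ∃ V : Subgroup P, V.Normal ∧ IsMulCommutative V ∧ ¬ IsCyclic V := by
  obtain ⟨z, hz⟩ : ∃ z : P, z = a ^ (2 ^ (l + 1)) := ⟨_, rfl⟩
  have hzA : z ∈ Subgroup.zpowers a := by rw [hz]; exact Subgroup.npow_mem_zpowers a _
  have hz2 : z ^ 2 = 1 := by
    rw [hz, ← pow_mul, ← pow_succ, ← ha, pow_orderOf_eq_one]
  have hz1 : z ≠ 1 := by
    rw [hz]
    apply pow_ne_one_of_lt_orderOf (by positivity)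
    rw [ha]
    exact Nat.pow_lt_pow_right (by norm_num) (by omega)
  have hinv : ∀ x ∈ Subgroup.zpowers a, x ^ 2 = 1 → x = 1 ∨ x = z := by
    intro x hx hx2
    have h := eq_one_or_eq_of_sq_of_mem_zpowers (m := l + 2) (by omega) ha hx hx2
    rw [show l + 2 - 1 = l + 1 by omega, ← hz] at h
    exact h
  have hzc : ∀ g : P, g * z = z * g := by
    intro g
    have h1 : g * z * g⁻¹ ∈ Subgroup.zpowers a := haN.conj_mem z hzA g
    have h2 : (g * z * g⁻¹) ^ 2 = 1 := by rw [conj_pow, hz2]; group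
    rcases hinv _ h1 h2 with h | h
    · exfalso
      apply hz1
      have h3 : z = g⁻¹ * (g * z * g⁻¹) * g := by group
      rw [h3, h]; group
    · calc g * z = g * z * g⁻¹ * g := by group
        _ = z * g := by rw [h]
  have hbx : ∀ x ∈ Subgroup.zpowers a, b * x * b⁻¹ = x ^ (1 + 2 ^ (l + 1)) := by
    intro x hx
    obtain ⟨k, rfl⟩ := Subgroup.mem_zpowers_iff.mp hx
    rw [← conj_zpow, hba, ← zpow_natCast, ← zpow_natCast, ← zpow_mul, ← zpow_mul, mul_comm]
  have hbinv : b⁻¹ = b := inv_eq_of_mul_eq_one_left (by rw [← pow_two]; exact hb2)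
  have hconj : ∀ g : P, g * b * g⁻¹ = b ∨ g * b * g⁻¹ = z * b := by
    intro g
    obtain ⟨t, ht⟩ : ∃ t : P, t = g * b * g⁻¹ := ⟨_, rfl⟩
    rw [← ht]
    have htK : t ∈ K := by rw [ht]; exact hK.conj_mem b hbK g
    have htA : t ∉ Subgroup.zpowers a := by
      intro h
      apply hb
      have h1 := haN.conj_mem t h g⁻¹
      have h2 : g⁻¹ * t * g⁻¹⁻¹ = b := by rw [ht]; group
      rw [h2] at h1
      exact h1
    have ht2 : t ^ 2 = 1 := by rw [ht, conj_pow, hb2]; group
    have htinv : t⁻¹ = t := inv_eq_of_mul_eq_one_left (by rw [← pow_two]; exact ht2)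
    have hc := hcos t htK htA
    have hbb : b * b = 1 := by rw [← pow_two]; exact hb2
    have h1 : b * (t * b) * b⁻¹ = (t * b)⁻¹ := by
      rw [mul_inv_rev, hbinv, htinv]
      calc b * (t * b) * b = b * t * (b * b) := by group
        _ = b * t := by rw [hbb, mul_one]
    have h2 := hbx (t * b) hc
    have h3 : (t * b) ^ (2 + 2 ^ (l + 1)) = 1 := by
      have h4 : (t * b) ^ (1 + 2 ^ (l + 1)) = (t * b)⁻¹ := h2.symm.trans h1
      have h5 : 2 + 2 ^ (l + 1) = (1 + 2 ^ (l + 1)) + 1 := by ring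
      rw [h5, pow_succ, h4, inv_mul_cancel]
    have h4 : (t * b) ^ 2 = 1 := by
      have hd1 : orderOf (t * b) ∣ 2 + 2 ^ (l + 1) := orderOf_dvd_of_pow_eq_one h3
      have hd2 : orderOf (t * b) ∣ 2 ^ (l + 2) := by
        rw [← ha]; exact orderOf_dvd_of_mem_zpowers hc
      have hg : Nat.gcd (2 + 2 ^ (l + 1)) (2 ^ (l + 2)) = 2 := by
        have e1 : 2 + 2 ^ (l + 1) = 2 * (1 + 2 ^ l) := by ring
        have e2 : 2 ^ (l + 2) = 2 * 2 ^ (l + 1) := by ring
        rw [e1, e2, Nat.gcd_mul_left]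
        have hcop : Nat.Coprime (1 + 2 ^ l) (2 ^ (l + 1)) := by
          apply Nat.Coprime.pow_right
          rw [Nat.coprime_two_right]
          obtain ⟨j, rfl⟩ : ∃ j, l = j + 1 := ⟨l - 1, by omega⟩
          exact ⟨2 ^ j, by ring⟩
        rw [hcop.gcd_eq_one]
      have hd : orderOf (t * b) ∣ 2 := by
        rw [← hg]; exact Nat.dvd_gcd hd1 hd2
      exact orderOf_dvd_iff_pow_eq_one.mp hd
    rcases hinv _ hc h4 with h | h
    · left
      have h5 : t = b⁻¹ := eq_inv_of_mul_eq_one_left h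
      rw [h5, hbinv]
    · right
      have h5 : t = z * b⁻¹ := eq_mul_inv_of_mul_eq h
      rw [h5, hbinv]
  have hzV : z ∈ Subgroup.zpowers z ⊔ Subgroup.zpowers b :=
    (le_sup_left : Subgroup.zpowers z ≤ _) (Subgroup.mem_zpowers z)
  have hbV : b ∈ Subgroup.zpowers z ⊔ Subgroup.zpowers b :=
    (le_sup_right : Subgroup.zpowers b ≤ _) (Subgroup.mem_zpowers b)
  refine ⟨Subgroup.zpowers z ⊔ Subgroup.zpowers b, ?_, ?_, ?_⟩
  · rw [← Subgroup.normalizer_eq_top_iff]
    ext g
    simp only [Subgroup.mem_top, iff_true]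
    apply mem_normalizer_of_forall_conj_mem
    have hmap : (Subgroup.zpowers z ⊔ Subgroup.zpowers b).map (MulAut.conj g).toMonoidHom ≤
        Subgroup.zpowers z ⊔ Subgroup.zpowers b := by
      rw [Subgroup.map_sup, MonoidHom.map_zpowers, MonoidHom.map_zpowers]
      apply sup_le
      · rw [Subgroup.zpowers_le]
        have h1 : (MulAut.conj g).toMonoidHom z = z := by
          change g * z * g⁻¹ = z
          rw [hzc g, mul_inv_cancel_right]
        rw [h1]; exact hzV
      · rw [Subgroup.zpowers_le]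
        have h1 : (MulAut.conj g).toMonoidHom b = g * b * g⁻¹ := rfl
        rw [h1]
        rcases hconj g with h | h
        · rw [h]; exact hbV
        · rw [h]; exact Subgroup.mul_mem _ hzV hbV
    intro x hx
    exact hmap (Subgroup.mem_map_of_mem _ hx)
  · have hcl : Subgroup.zpowers z ⊔ Subgroup.zpowers b = Subgroup.closure ({z} ∪ {b}) := by
      rw [Subgroup.closure_union, Subgroup.zpowers_eq_closure, Subgroup.zpowers_eq_closure]
    rw [hcl]
    apply Subgroup.isMulCommutative_closure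
    rintro x (hx | hx) y (hy | hy)
    · rw [Set.mem_singleton_iff] at hx hy
      rw [hx, hy]
    · rw [Set.mem_singleton_iff] at hx hy
      rw [hx, hy]; exact (hzc b).symm
    · rw [Set.mem_singleton_iff] at hx hy
      rw [hx, hy]; exact hzc b
    · rw [Set.mem_singleton_iff] at hx hy
      rw [hx, hy]
  · apply not_isCyclic_of_pow_prime Nat.prime_two
      (⟨z, hzV⟩ : ↥(Subgroup.zpowers z ⊔ Subgroup.zpowers b)) ⟨b, hbV⟩
    · apply Subtype.ext
      rw [Subgroup.coe_pow]; exact hz2
    · intro h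
      exact hz1 (congrArg Subtype.val h)
    · apply Subtype.ext
      rw [Subgroup.coe_pow]; exact hb2
    · intro h
      obtain ⟨k, hk⟩ := Subgroup.mem_zpowers_iff.mp h
      have h1 : z ^ k = b := by
        have := congrArg Subtype.val hk
        rwa [Subgroup.coe_zpow] at this
      apply hb
      have h2 : z ^ k ∈ Subgroup.zpowers a := Subgroup.zpow_mem _ hzA k
      rw [← h1]
      exact h2

end Cfsg.Agent.Lib.Helper73
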