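import Mathlib
import Cfsg.Agent.Lib.Helper73.PGroupBasic
import Cfsg.Agent.Lib.Helper73.IndexTwoAbelian
import Cfsg.Agent.Lib.Helper73.CyclicIndexTwo
import Cfsg.Agent.Lib.Helper73.MaximalClassTwo

set_option autoImplicit false

namespace Cfsg.Agent.Lib.Helper73

open scoped commutatorElement

universe u

/-- A non-abelian finite 2-group with a cyclic subgroup `⟨a⟩` of index two, `a` of order
`2 ^ (l + 2)`, whose commutator subgroup does not have index four, is the modular group: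
`l ≥ 1` and there is an involution `b ∉ ⟨a⟩` with `b a b⁻¹ = a ^ (1 + 2 ^ (l + 1))`. -/
theorem modular_structure {S : Type u} [Group S] [Finite S] (a : S) (l : ℕ)
    (ha : orderOf a = 2 ^ (l + 2)) (hidx : (Subgroup.zpowers a).index = 2)
    (hna : commutator S ≠ ⊥) (hidx4 : (commutator S).index ≠ 4) :
    1 ≤ l ∧ ∃ b : S, b ∉ Subgroup.zpowers a ∧ b ^ 2 = 1 ∧
      b * a * b⁻¹ = a ^ (1 + 2 ^ (l + 1)) := by
  have : Fact (Nat.Prime 2) := ⟨Nat.prime_two⟩
  set A := Subgroup.zpowers a with hA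
  have haA : a ∈ A := Subgroup.mem_zpowers a
  have hAcard : Nat.card A = 2 ^ (l + 2) := by rw [hA, Nat.card_zpowers, ha]
  have hScard : Nat.card S = 2 ^ (l + 3) := by
    have := A.card_mul_index
    rw [hidx, hAcard] at this
    rw [← this]; ring
  have hAc : ∀ x ∈ A, ∀ y ∈ A, x * y = y * x := by
    intro x hx y hy
    obtain ⟨i, rfl⟩ := Subgroup.mem_zpowers_iff.mp hx
    obtain ⟨j, rfl⟩ := Subgroup.mem_zpowers_iff.mp hy
    exact ((Commute.refl a).zpow_zpow i j).eq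
  obtain ⟨b, hb⟩ : ∃ b, b ∉ A := by
    by_contra hcon
    push Not at hcon
    have : A = ⊤ := eq_top_iff.mpr fun x _ => hcon x
    rw [this, Subgroup.index_top] at hidx
    omega
  obtain ⟨δ, hδ⟩ := exists_delta hidx hAc b
  obtain ⟨τ, hτ⟩ := exists_tau hidx hAc b
  have hcard := card_commutator_mul_card_ker hidx hAc hb δ hδ
  have hc1 := (commutator S).card_mul_index
  rw [hScard] at hc1
  rw [hAcard] at hcard
  obtain ⟨k, hkm, hk⟩ : ∃ k ≤ l + 2, Nat.card δ.ker = 2 ^ k :=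
    (Nat.dvd_prime_pow Nat.prime_two).mp (Dvd.intro_left _ hcard)
  have hS' : Nat.card (commutator S) = 2 ^ (l + 2 - k) := by
    rw [hk] at hcard
    have h2 : 2 ^ (l + 2 - k) * 2 ^ k = 2 ^ (l + 2) := by
      rw [← pow_add]; congr 1; omega
    rw [← h2] at hcard
    exact Nat.eq_of_mul_eq_mul_right (by positivity) hcard
  have hrange : Nat.card δ.range = 2 ^ (l + 2 - k) := by
    have e1 := Subgroup.card_mul_index δ.ker
    rw [Subgroup.index_ker, hk, hAcard] at e1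
    have h2 : 2 ^ k * 2 ^ (l + 2 - k) = 2 ^ (l + 2) := by
      rw [← pow_add]; congr 1; omega
    rw [← h2] at e1
    exact Nat.eq_of_mul_eq_mul_left (by positivity) e1
  -- the involution z
  obtain ⟨z, hz⟩ : ∃ z : S, z = a ^ (2 ^ (l + 1)) := ⟨_, rfl⟩
  have hzA : z ∈ A := by rw [hz]; exact Subgroup.pow_mem _ haA _
  have hz1 : z ≠ 1 := by
    rw [hz]
    apply pow_ne_one_of_lt_orderOf (by positivity)
    rw [ha]
    exact Nat.pow_lt_pow_right (by norm_num) (by omega)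
  have hz2 : z ^ 2 = 1 := by
    rw [hz, ← pow_mul, ← pow_succ, ← ha]
    exact pow_orderOf_eq_one a
  have hbz : b * z * b⁻¹ = z := by
    have h1 : b * z * b⁻¹ ∈ A := conj_mem_of_index_two hidx b hzA
    have h2 : (b * z * b⁻¹) ^ 2 = 1 := by
      calc (b * z * b⁻¹) ^ 2 = b * z ^ 2 * b⁻¹ := by rw [pow_two, pow_two]; group
        _ = 1 := by rw [hz2]; group
    rcases eq_one_or_eq_of_sq_of_mem_zpowers (by omega : 1 ≤ l + 2) ha h1 h2 with h | h
    · exfalso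
      apply hz1
      have : z = b⁻¹ * (b * z * b⁻¹) * b := by group
      rw [this, h]; group
    · rw [h, hz]; rfl
  obtain ⟨a', ha'⟩ : ∃ a' : ↥A, (a' : S) = a := ⟨⟨a, haA⟩, rfl⟩
  obtain ⟨z', hz'⟩ : ∃ z' : ↥A, (z' : S) = z := ⟨⟨z, hzA⟩, rfl⟩
  have hz'ker : z' ∈ δ.ker := by
    rw [mem_ker_delta_iff b δ hδ, hz']
    calc b * z = (b * z * b⁻¹) * b := by group
      _ = z * b := by rw [hbz]
  have hk0 : k ≠ 0 := by
    rintro rfl
    rw [pow_zero, Subgroup.card_eq_one] at hk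
    rw [hk, Subgroup.mem_bot] at hz'ker
    apply hz1
    rw [← hz', hz'ker]; rfl
  have hk1 : k ≠ 1 := by
    rintro rfl
    apply hidx4
    rw [hS'] at hc1
    have h2 : 2 ^ (l + 2 - 1) * 4 = 2 ^ (l + 3) := by
      have : l + 2 - 1 = l + 1 := by omega
      rw [this]; ring
    rw [← h2] at hc1
    exact Nat.eq_of_mul_eq_mul_left (by positivity) hc1
  have hkm' : k ≠ l + 2 := by
    rintro rfl
    apply hna
    rw [Nat.sub_self, pow_zero] at hS'
    exact Subgroup.card_eq_one.mp hS'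
  have hl : 1 ≤ l := by omega
  refine ⟨hl, ?_⟩
  -- c = δ a
  have hcmem : δ a' ∈ δ.range := ⟨a', rfl⟩
  have hcoe : ((δ a' : ↥A) : S) = b * a * b⁻¹ * a⁻¹ := by rw [hδ, ha']
  have hcA : b * a * b⁻¹ * a⁻¹ ∈ A := by rw [← hcoe]; exact (δ a').2
  have hcord : orderOf (δ a') ∣ 2 ^ (l + 2 - k) := by
    rw [← hrange]
    exact Subgroup.orderOf_dvd_natCard _ hcmem
  have hcpow : (δ a') ^ (2 ^ l) = 1 := by
    apply orderOf_dvd_iff_pow_eq_one.mp
    exact hcord.trans (pow_dvd_pow 2 (by omega))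
  have hcS : (b * a * b⁻¹ * a⁻¹) ^ (2 ^ l) = 1 := by
    have := congrArg Subtype.val hcpow
    rw [Subgroup.coe_pow, hcoe] at this
    simpa using this
  obtain ⟨i, hi⟩ : ∃ i : ℤ, a ^ i = b * a * b⁻¹ * a⁻¹ := Subgroup.mem_zpowers_iff.mp hcA
  have h4 : (4 : ℤ) ∣ i := by
    have h1 : a ^ (i * ((2 ^ l : ℕ) : ℤ)) = 1 := by
      rw [zpow_mul, hi, zpow_natCast]; exact hcS
    have h2 : ((orderOf a : ℕ) : ℤ) ∣ i * ((2 ^ l : ℕ) : ℤ) := orderOf_dvd_iff_zpow_eq_one.mpr h1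
    rw [ha] at h2
    have : ((2 ^ (l + 2) : ℕ) : ℤ) = 4 * ((2 ^ l : ℕ) : ℤ) := by push_cast; ring
    rw [this] at h2
    exact Int.dvd_of_mul_dvd_mul_right (by positivity) h2
  obtain ⟨j, rfl⟩ := h4
  -- t = τ a
  obtain ⟨t, ht⟩ : ∃ t : S, t = b * a * b⁻¹ * a := ⟨_, rfl⟩
  have ht_eq : t = a ^ (4 * j + 2) := by
    have : a ^ (2 : ℤ) = a * a := by rw [zpow_two]
    rw [zpow_add, hi, ht, this]; group
  have htz : t ^ (2 ^ l) = z := by
    rw [ht_eq, ← zpow_natCast, ← zpow_mul]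
    have e : (4 * j + 2) * ((2 ^ l : ℕ) : ℤ)
        = ((2 ^ (l + 2) : ℕ) : ℤ) * j + ((2 ^ (l + 1) : ℕ) : ℤ) := by
      push_cast; ring
    rw [e, zpow_add, zpow_mul, zpow_natCast, zpow_natCast, ← ha, pow_orderOf_eq_one, one_zpow,
      one_mul, hz]
  have htord : orderOf t = 2 ^ (l + 1) := by
    apply orderOf_eq_prime_pow
    · rw [htz]; exact hz1
    · rw [pow_succ, pow_mul, htz]; exact hz2
  obtain ⟨t', ht'⟩ : ∃ t' : ↥A, t' = τ a' := ⟨_, rfl⟩
  have ht'coe : (t' : S) = t := by rw [ht', hτ, ha', ht]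
  have ht'ker : t' ∈ δ.ker := by
    rw [mem_ker_delta_iff b δ hδ, ht'coe, ht]
    have h1 := conj_conj_of_index_two hidx hAc b haA
    have h2 : a * (b * a * b⁻¹) = (b * a * b⁻¹) * a :=
      hAc _ haA _ (conj_mem_of_index_two hidx b haA)
    calc b * (b * a * b⁻¹ * a) = (b * (b * a * b⁻¹) * b⁻¹) * (b * a * b⁻¹) * b := by group
      _ = a * (b * a * b⁻¹) * b := by rw [h1]
      _ = b * a * b⁻¹ * a * b := by rw [h2]
  have ht'ord : orderOf t' = 2 ^ (l + 1) := by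
    rw [← htord, ← ht'coe, Subgroup.orderOf_coe]
  have hkl : k = l + 1 := by
    have h1 : orderOf t' ∣ Nat.card δ.ker := Subgroup.orderOf_dvd_natCard _ ht'ker
    rw [ht'ord, hk] at h1
    have := (Nat.pow_dvd_pow_iff_le_right (by norm_num : 1 < 2)).mp h1
    omega
  subst hkl
  have hrange2 : Nat.card δ.range = 2 := by
    rw [hrange]
    have : l + 2 - (l + 1) = 1 := by omega
    rw [this, pow_one]
  have hc2 : (b * a * b⁻¹ * a⁻¹) ^ 2 = 1 := by
    have h1 : orderOf (δ a') ∣ 2 := by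
      rw [← hrange2]; exact Subgroup.orderOf_dvd_natCard _ hcmem
    have h2 := orderOf_dvd_iff_pow_eq_one.mp h1
    have := congrArg Subtype.val h2
    rw [Subgroup.coe_pow, hcoe] at this
    simpa using this
  have hc1' : b * a * b⁻¹ * a⁻¹ ≠ 1 := by
    intro h
    have h1 : a' ∈ δ.ker := by
      rw [MonoidHom.mem_ker]; apply Subtype.ext; rw [hcoe, h]; rfl
    have h2 : orderOf a' ∣ Nat.card δ.ker := Subgroup.orderOf_dvd_natCard _ h1
    have h3 : orderOf a' = 2 ^ (l + 2) := by rw [← ha, ← ha', Subgroup.orderOf_coe]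
    rw [h3, hk] at h2
    have := (Nat.pow_dvd_pow_iff_le_right (by norm_num : 1 < 2)).mp h2
    omega
  have hcz : b * a * b⁻¹ * a⁻¹ = z := by
    rcases eq_one_or_eq_of_sq_of_mem_zpowers (by omega : 1 ≤ l + 2) ha hcA hc2 with h | h
    · exact absurd h hc1'
    · rw [h, hz]; rfl
  have hbab : b * a * b⁻¹ = a ^ (1 + 2 ^ (l + 1)) := by
    rw [add_comm, pow_succ, ← hz, ← hcz]; group
  -- adjust b
  have hb2A : b ^ 2 ∈ A := Subgroup.sq_mem_of_index_two hidx b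
  obtain ⟨s', hs'⟩ : ∃ s' : ↥A, (s' : S) = b ^ 2 := ⟨⟨b ^ 2, hb2A⟩, rfl⟩
  have hs'ker : s' ∈ δ.ker := by
    rw [mem_ker_delta_iff b δ hδ, hs']
    rw [pow_two]; group
  have hKer : Subgroup.zpowers t' = δ.ker := by
    apply Subgroup.eq_of_le_of_card_ge (Subgroup.zpowers_le.mpr ht'ker)
    rw [Nat.card_zpowers, ht'ord, hk]
  rw [← hKer] at hs'ker
  obtain ⟨j', hj'⟩ := Subgroup.mem_zpowers_iff.mp hs'ker
  have hj'S : t ^ j' = b ^ 2 := by
    have := congrArg Subtype.val hj'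
    rw [Subgroup.coe_zpow, ht'coe, hs'] at this
    exact this
  have hτx : b * a ^ (-j') * b⁻¹ * a ^ (-j') = (b ^ 2)⁻¹ := by
    have h1 : τ (a' ^ (-j')) = t' ^ (-j') := by rw [ht']; exact map_zpow τ a' (-j')
    have h2 := congrArg Subtype.val h1
    rw [hτ, Subgroup.coe_zpow, Subgroup.coe_zpow, ht'coe, ha'] at h2
    rw [h2, zpow_neg, hj'S]
  have hx : a ^ (-j') ∈ A := Subgroup.zpow_mem _ haA _
  refine ⟨b * a ^ (-j'), ?_, ?_, ?_⟩
  · intro h
    apply hb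
    exact (Subgroup.mul_mem_cancel_right A hx).mp h
  · have hcomm : b ^ 2 * a ^ (-j') = a ^ (-j') * b ^ 2 := hAc _ hb2A _ hx
    calc (b * a ^ (-j')) ^ 2 = (b * a ^ (-j') * b⁻¹) * (b ^ 2 * a ^ (-j')) := by
          rw [pow_two, pow_two]; group
      _ = (b * a ^ (-j') * b⁻¹) * (a ^ (-j') * b ^ 2) := by rw [hcomm]
      _ = (b * a ^ (-j') * b⁻¹ * a ^ (-j')) * b ^ 2 := by group
      _ = 1 := by rw [hτx]; group
  · have hcomm : a ^ (-j') * a = a * a ^ (-j') := ((Commute.refl a).zpow_left (-j')).eq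
    calc b * a ^ (-j') * a * (b * a ^ (-j'))⁻¹
        = b * (a ^ (-j') * a) * (a ^ (-j'))⁻¹ * b⁻¹ := by group
      _ = b * (a * a ^ (-j')) * (a ^ (-j'))⁻¹ * b⁻¹ := by rw [hcomm]
      _ = b * a * b⁻¹ := by group
      _ = _ := hbab

end Cfsg.Agent.Lib.Helper73
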