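import Mathlib

/-!
# Determinant of a finite-order operator whose nontrivial powers are traceless
-/

set_option autoImplicit false

namespace Cfsg.Agent.Lib.Helper73

open Finset

section DetCyc

variable {V : Type*} [AddCommGroup V] [Module ℂ V] [FiniteDimensional ℂ V]

theorem dc_det_idem (P : Module.End ℂ V) (hP : IsIdempotentElem P) (c : ℂ) :
    LinearMap.det (1 + (c - 1) • P) = c ^ Module.finrank ℂ (LinearMap.range P) := by
  have hproj : LinearMap.IsProj (LinearMap.range P) P :=
    LinearMap.IsIdempotentElem.isProj_range P hP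
  set E := (LinearMap.range P).prodEquivOfIsCompl (LinearMap.ker P) hproj.isCompl with hE
  have h1 : P = E.conj (LinearMap.prodMap LinearMap.id 0) := hproj.eq_conj_prodMap
  have h3 : (1 : Module.End ℂ V) = E.conj 1 := by
    rw [LinearEquiv.conj_apply]
    ext v
    simp
  have h2 : (1 + (c - 1) • P : Module.End ℂ V) =
      E.conj (LinearMap.prodMap (c • LinearMap.id) LinearMap.id) := by
    have h4 : (LinearMap.prodMap (c • LinearMap.id) LinearMap.id :
        Module.End ℂ (↥(LinearMap.range P) × ↥(LinearMap.ker P))) =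
        1 + (c - 1) • LinearMap.prodMap LinearMap.id 0 := by
      ext v <;> simp [sub_smul] 
    rw [h4, map_add, map_smul, ← h1, ← h3]
  rw [h2, LinearEquiv.conj_apply, LinearMap.comp_assoc, LinearMap.det_conj, LinearMap.det_prodMap,
    LinearMap.det_smul, LinearMap.det_id, LinearMap.det_id]
  simp

omit [FiniteDimensional ℂ V] in
theorem dc_geo (B : Module.End ℂ V) (e : ℕ) (hB : B ^ e = 1) :
    B * ∑ l ∈ range e, B ^ l = ∑ l ∈ range e, B ^ l := by
  have h1 := Finset.sum_range_succ (fun l => B ^ l) e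
  have h2 := Finset.sum_range_succ' (fun l => B ^ l) e
  rw [Finset.mul_sum]
  have h3 : ∑ l ∈ range e, B * B ^ l = ∑ l ∈ range e, B ^ (l + 1) := by
    refine Finset.sum_congr rfl (fun l _ => ?_)
    rw [pow_succ']
  rw [h3]
  have h4 : ∑ l ∈ range e, B ^ (l + 1) + B ^ 0 = ∑ l ∈ range e, B ^ l + B ^ e := by
    rw [← h2, ← h1]
  rw [hB, pow_zero] at h4
  exact add_right_cancel h4

omit [FiniteDimensional ℂ V] in
theorem dc_geo_pow (B : Module.End ℂ V) (e : ℕ) (hB : B ^ e = 1) (m : ℕ) :
    B ^ m * ∑ l ∈ range e, B ^ l = ∑ l ∈ range e, B ^ l := by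
  induction m with
  | zero => simp
  | succ m ih => rw [pow_succ, mul_assoc, dc_geo B e hB, ih]

theorem dc_geom_zero (w : ℂ) (e : ℕ) (hw : w ≠ 1) (hwe : w ^ e = 1) :
    ∑ l ∈ range e, w ^ l = 0 := by
  rw [geom_sum_eq hw, hwe, sub_self, zero_div]

theorem dc_det (A : Module.End ℂ V) (e s : ℕ) (he : Even e) (he0 : e ≠ 0) (hA : A ^ e = 1)
    (htr : ∀ i, 0 < i → i < e → LinearMap.trace ℂ V (A ^ i) = 0)
    (hs : Odd s) (hdim : Module.finrank ℂ V = e * s) : LinearMap.det A = -1 := by
  classical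
  set ζ : ℂ := Complex.exp (2 * Real.pi * Complex.I / e) with hζdef
  have hζ : IsPrimitiveRoot ζ e := Complex.isPrimitiveRoot_exp e he0
  have hζ0 : ζ ≠ 0 := hζ.ne_zero he0
  have heC : (e : ℂ) ≠ 0 := by exact_mod_cast he0
  -- the twisted operators
  set B : ℕ → Module.End ℂ V := fun j => (ζ ^ j)⁻¹ • A with hBdef
  have hBe : ∀ j, (B j) ^ e = 1 := by
    intro j
    simp only [hBdef]
    rw [smul_pow, hA, inv_pow, ← pow_mul, mul_comm, pow_mul, hζ.pow_eq_one, one_pow, inv_one,
      one_smul]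
  set S : ℕ → Module.End ℂ V := fun j => ∑ l ∈ range e, (B j) ^ l with hSdef
  set P : ℕ → Module.End ℂ V := fun j => (e : ℂ)⁻¹ • S j with hPdef
  have hBS : ∀ j m, (B j) ^ m * S j = S j := fun j m => dc_geo_pow (B j) e (hBe j) m
  have hSS : ∀ j, S j * S j = (e : ℂ) • S j := by
    intro j
    have : S j * S j = ∑ l ∈ range e, (B j) ^ l * S j := by
      conv_lhs => rw [hSdef]
      simp only []
      rw [Finset.sum_mul]
    rw [this]
    simp only [hBS]
    rw [Finset.sum_const, Finset.card_range]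
    rw [← Nat.cast_smul_eq_nsmul ℂ]
  have hPidem : ∀ j, IsIdempotentElem (P j) := by
    intro j
    show P j * P j = P j
    simp only [hPdef]
    rw [smul_mul_smul_comm, hSS, smul_smul]
    congr 1
    field_simp
  have hAP : ∀ j, A * P j = ζ ^ j • P j := by
    intro j
    have hAB : A = ζ ^ j • B j := by
      simp only [hBdef]
      rw [smul_smul, mul_inv_cancel₀ (pow_ne_zero j hζ0), one_smul]
    have h1 : B j * S j = S j := by simpa using hBS j 1
    simp only [hPdef]
    rw [mul_smul_comm]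
    conv_lhs => rw [hAB]
    rw [smul_mul_assoc, h1, smul_comm]
  have hBP : ∀ j j', B j * P j' = ((ζ ^ j)⁻¹ * ζ ^ j') • P j' := by
    intro j j'
    simp only [hBdef]
    rw [smul_mul_assoc, hAP, smul_smul]
  have hBPpow : ∀ j j' l, (B j) ^ l * P j' = ((ζ ^ j)⁻¹ * ζ ^ j') ^ l • P j' := by
    intro j j' l
    induction l with
    | zero => simp
    | succ l ih =>
      rw [pow_succ, mul_assoc, hBP, mul_smul_comm, ih, smul_smul, pow_succ, mul_comm]
  have horth : ∀ j j', j < e → j' < e → j ≠ j' → P j * P j' = 0 := by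
    intro j j' hj hj' hne
    have hw : (ζ ^ j)⁻¹ * ζ ^ j' ≠ 1 := by
      intro h
      have h2 : ζ ^ j' = ζ ^ j := by
        have := congrArg (fun z => ζ ^ j * z) h
        simp only [mul_one] at this
        rw [← mul_assoc, mul_inv_cancel₀ (pow_ne_zero j hζ0), one_mul] at this
        exact this
      exact hne (hζ.pow_inj hj hj' h2.symm)
    have hwe : ((ζ ^ j)⁻¹ * ζ ^ j') ^ e = 1 := by
      rw [mul_pow, inv_pow, ← pow_mul, ← pow_mul, mul_comm j e, mul_comm j' e, pow_mul, pow_mul,
        hζ.pow_eq_one, one_pow, one_pow, inv_one, one_mul]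
    have : P j * P j' = (e : ℂ)⁻¹ • ∑ l ∈ range e, (B j) ^ l * P j' := by
      conv_lhs => rw [hPdef]
      simp only []
      rw [smul_mul_assoc, hSdef]
      simp only []
      rw [Finset.sum_mul]
    rw [this]
    simp only [hBPpow]
    rw [← Finset.sum_smul, dc_geom_zero _ e hw hwe, zero_smul, smul_zero]
  have hsum : ∑ j ∈ range e, P j = 1 := by
    have h1 : ∀ j, P j = (e : ℂ)⁻¹ • ∑ l ∈ range e, (((ζ ^ l)⁻¹) ^ j) • A ^ l := by
      intro j
      simp only [hPdef, hSdef, hBdef]
      congr 1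
      refine Finset.sum_congr rfl (fun l _ => ?_)
      rw [smul_pow]
      congr 1
      rw [inv_pow, inv_pow, ← pow_mul, ← pow_mul, mul_comm]
    simp only [h1]
    rw [← Finset.smul_sum, Finset.sum_comm]
    have h2 : ∀ l ∈ range e, ∑ j ∈ range e, (((ζ ^ l)⁻¹) ^ j) • A ^ l =
        if l = 0 then (e : ℂ) • (1 : Module.End ℂ V) else 0 := by
      intro l hl
      rw [← Finset.sum_smul]
      split_ifs with h0
      · subst h0
        simp
      · have hl' : l < e := Finset.mem_range.mp hl
        have hw : (ζ ^ l)⁻¹ ≠ 1 := by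
          intro h
          exact hζ.pow_ne_one_of_pos_of_lt h0 hl' (inv_eq_one.mp h)
        have hwe : ((ζ ^ l)⁻¹) ^ e = 1 := by
          rw [inv_pow, ← pow_mul, mul_comm, pow_mul, hζ.pow_eq_one, one_pow, inv_one]
        rw [dc_geom_zero _ e hw hwe, zero_smul]
    rw [Finset.sum_congr rfl h2, Finset.sum_ite_eq' (range e) 0]
    rw [if_pos (Finset.mem_range.mpr (Nat.pos_of_ne_zero he0)), smul_smul, inv_mul_cancel₀ heC,
      one_smul]
  have htrP : ∀ j, LinearMap.trace ℂ V (P j) = (s : ℂ) := by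
    intro j
    simp only [hPdef, hSdef, hBdef]
    rw [map_smul, map_sum]
    have h2 : ∀ l ∈ range e, LinearMap.trace ℂ V (((ζ ^ j)⁻¹ • A) ^ l) =
        if l = 0 then ((e * s : ℕ) : ℂ) else 0 := by
      intro l hl
      rw [smul_pow, map_smul]
      split_ifs with h0
      · subst h0
        simp [LinearMap.trace_one, hdim]
      · rw [htr l (Nat.pos_of_ne_zero h0) (Finset.mem_range.mp hl), smul_zero]
    rw [Finset.sum_congr rfl h2, Finset.sum_ite_eq' (range e) 0,
      if_pos (Finset.mem_range.mpr (Nat.pos_of_ne_zero he0))]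
    push_cast
    rw [smul_eq_mul]
    field_simp
  have hrank : ∀ j, Module.finrank ℂ (LinearMap.range (P j)) = s := by
    intro j
    have hproj : LinearMap.IsProj (LinearMap.range (P j)) (P j) :=
      LinearMap.IsIdempotentElem.isProj_range (P j) (hPidem j)
    have := hproj.trace
    rw [htrP j] at this
    exact_mod_cast this.symm
  have hAsum : A = ∑ j ∈ range e, ζ ^ j • P j := by
    have : A = A * ∑ j ∈ range e, P j := by rw [hsum, mul_one]
    rw [this, Finset.mul_sum]
    exact Finset.sum_congr rfl (fun j _ => hAP j)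
  -- partial products
  have hQ : ∀ n, n ≤ e → LinearMap.det (1 + ∑ j ∈ range n, (ζ ^ j - 1) • P j) =
      ∏ j ∈ range n, (ζ ^ j) ^ s := by
    intro n
    induction n with
    | zero => intro _; simp
    | succ n ih =>
      intro hn
      have hn' : n ≤ e := Nat.le_of_succ_le hn
      have hstep : (1 + ∑ j ∈ range (n + 1), (ζ ^ j - 1) • P j : Module.End ℂ V) =
          (1 + ∑ j ∈ range n, (ζ ^ j - 1) • P j) * (1 + (ζ ^ n - 1) • P n) := by
        have hz : ∑ j ∈ range n, (ζ ^ j - 1) • P j * (ζ ^ n - 1) • P n = 0 := by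
          refine Finset.sum_eq_zero (fun j hj => ?_)
          have hjn : j < n := Finset.mem_range.mp hj
          rw [smul_mul_smul_comm, horth j n (by omega) (by omega) (by omega), smul_zero]
        rw [Finset.sum_range_succ, mul_add, mul_one, add_mul, one_mul, Finset.sum_mul, hz,
          add_zero]
        abel
      rw [hstep, map_mul, ih hn', dc_det_idem (P n) (hPidem n), hrank, Finset.prod_range_succ]
  have hfin : (1 + ∑ j ∈ range e, (ζ ^ j - 1) • P j : Module.End ℂ V) = A := by
    simp only [sub_smul, one_smul]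
    rw [Finset.sum_sub_distrib, hsum, ← hAsum]
    abel
  have hdet := hQ e le_rfl
  rw [hfin] at hdet
  rw [hdet, Finset.prod_pow, Finset.prod_pow_eq_pow_sum]
  obtain ⟨m, hm⟩ := he
  have hm0 : m ≠ 0 := by omega
  have hsumj : ∑ j ∈ range e, j = m * (e - 1) := by
    have := Finset.sum_range_id_mul_two e
    have h2 : e * (e - 1) = m * (e - 1) * 2 := by rw [hm]; ring
    omega
  have hzm : ζ ^ m = -1 := by
    have h1 : (ζ ^ m) ^ 2 = 1 := by
      rw [← pow_mul, mul_two, ← hm, hζ.pow_eq_one]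
    have h2 : ζ ^ m ≠ 1 := hζ.pow_ne_one_of_pos_of_lt hm0 (by omega)
    have h3 : (ζ ^ m - 1) * (ζ ^ m + 1) = 0 := by
      have : (ζ ^ m - 1) * (ζ ^ m + 1) = (ζ ^ m) ^ 2 - 1 := by ring
      rw [this, h1, sub_self]
    rcases mul_eq_zero.mp h3 with h | h
    · exact absurd (sub_eq_zero.mp h) h2
    · exact eq_neg_of_add_eq_zero_left h
  rw [hsumj, pow_mul, hzm]
  have hodd : Odd (e - 1) := by
    rw [hm]
    exact ⟨m - 1, by omega⟩
  rw [hodd.neg_one_pow, hs.neg_one_pow]

end DetCyc

end Cfsg.Agent.Lib.Helper73
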