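import Mathlib
import Cfsg.Agent.Lib.Helper73.Q8Arith

/-!
# The arithmetic behind the principal `2`-block for `Q₈`: exactly three characters

Sharpening of `q8a_core`: under the same hypotheses the index set has exactly three elements and
all defects vanish.
-/

set_option autoImplicit false

namespace Cfsg.Agent.Lib.Helper73

theorem q8a_core_full {ι : Type*} [DecidableEq ι] (T : Finset ι) (hT : T.card ≤ 3)
    (c x g : ι → ℤ) (hc : ∀ i ∈ T, c i = 1 ∨ c i = -1) (hx : ∀ i ∈ T, 1 ≤ x i)
    (hg : ∀ i ∈ T, 0 ≤ g i) (hm : ∀ i ∈ T, (x i - c i - 2 * g i) % 4 = 0)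
    (R1 : 1 + ∑ i ∈ T, c i * x i = 0) (R2 : ∑ i ∈ T, c i * g i = 0)
    (R3 : ∑ i ∈ T, (c i : ℚ) * (g i : ℚ) ^ 2 / (x i : ℚ) = 0) :
    T.card = 3 ∧ ∀ i ∈ T, g i = 0 := by
  have hcases : T.card = 0 ∨ T.card = 1 ∨ T.card = 2 ∨ T.card = 3 := by omega
  rcases hcases with h | h | h | h
  · exfalso
    rw [Finset.card_eq_zero] at h
    subst h
    simp at R1
  · exfalso
    rw [Finset.card_eq_one] at h
    obtain ⟨i, rfl⟩ := h
    have hi := Finset.mem_singleton_self i
    rw [Finset.sum_singleton] at R1 R2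
    have hmi := hm i hi
    have hxi := hx i hi
    rcases hc i hi with h1 | h1
    · rw [h1] at R1; omega
    · rw [h1] at R1 R2 hmi
      omega
  · exfalso
    rw [Finset.card_eq_two] at h
    obtain ⟨i, j, hij, rfl⟩ := h
    have hi : i ∈ ({i, j} : Finset ι) := by simp
    have hj : j ∈ ({i, j} : Finset ι) := by simp
    rw [Finset.sum_pair hij] at R1 R2 R3
    have h0 := q8a_two (c i) (c j) (x i) (x j) (g i) (g j) (hc i hi) (hc j hj) (hx i hi) (hx j hj)
      (by linarith) R2 R3
    have hmi := hm i hi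
    have hmj := hm j hj
    have hxi := hx i hi
    have hxj := hx j hj
    rw [h0.1] at hmi
    rw [h0.2] at hmj
    rcases hc i hi with h1 | h1 <;> rcases hc j hj with h2 | h2 <;> rw [h1] at R1 hmi <;>
      rw [h2] at R1 hmj <;> omega
  · refine ⟨h, ?_⟩
    rw [Finset.card_eq_three] at h
    obtain ⟨i, j, k, hij, hik, hjk, rfl⟩ := h
    have hi : i ∈ ({i, j, k} : Finset ι) := by simp
    have hj : j ∈ ({i, j, k} : Finset ι) := by simp
    have hk : k ∈ ({i, j, k} : Finset ι) := by simp
    have hnot : i ∉ ({j, k} : Finset ι) := by simp [hij, hik]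
    rw [Finset.sum_insert hnot, Finset.sum_pair hjk] at R1 R2 R3
    have h0 := q8a_three (c i) (c j) (c k) (x i) (x j) (x k) (g i) (g j) (g k) (hc i hi) (hc j hj)
      (hc k hk) (hx i hi) (hx j hj) (hx k hk) (hg i hi) (hg j hj) (hg k hk) (hm i hi) (hm j hj)
      (hm k hk) (by linarith) (by linarith) (by rw [← R3]; ring)
    intro l hl
    simp only [Finset.mem_insert, Finset.mem_singleton] at hl
    rcases hl with rfl | rfl | rfl
    · exact h0.1
    · exact h0.2.1
    · exact h0.2.2

end Cfsg.Agent.Lib.Helper73
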