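import Mathlib
import Cfsg.Prelude.Def_Blocks
import Cfsg.Agent.Lib.Helper73.Q8Char
import Cfsg.Agent.Lib.Helper73.Q8Arith2

/-!
# The principal `2`-block of a group with Sylow `2`-subgroup `Q₈`: structure at an element of
order four

`G` with Sylow `2`-subgroup `S ≅ Q₈` in which all elements of order four of `S` are conjugate to
`u`.  For every irreducible character `χ` write `χ 1 = x`, `χ u = c`, `χ (u * u) = x - 4 g`.
Then the principal `2`-block contains exactly three non-principal characters with `c ≠ 0`; they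
have `c = ± 1` and `g = 0` (the involution `u * u` is in their kernel).
-/

set_option autoImplicit false

namespace Cfsg.Agent.Lib.Helper73

open Cfsg Cfsg.Agent.Lib.Helper16 Cfsg.Agent.Lib.Helper77 Cfsg.Agent.Lib.Helper78

universe u

section block

variable {G : Type u} [Group G] [Finite G] (S : Sylow 2 G)
  (e : ↥(S : Subgroup G) ≃* QuaternionGroup 2)

include e

/-- **Structure of the principal block at an element of order four.** -/
theorem q8b_struct (M : Ideal Cfsg.AlgInt) (hM : Cfsg.IsPModular 2 M) (u : G)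
    (hu : u ∈ (S : Subgroup G)) (hu4 : orderOf u = 4)
    (hfus : ∀ v ∈ (S : Subgroup G), orderOf v = 4 → IsConj u v) :
    ∃ (x : Cfsg.IrrCharacter G → ℕ) (c : Cfsg.IrrCharacter G → ℤ) (g : Cfsg.IrrCharacter G → ℕ)
      (T : Finset (Cfsg.IrrCharacter G)),
      (∀ χ : Cfsg.IrrCharacter G, 0 < x χ ∧ (χ : G → ℂ) 1 = (x χ : ℂ) ∧
        (χ : G → ℂ) u = (c χ : ℂ) ∧ (χ : G → ℂ) (u * u) = (x χ : ℂ) - 4 * (g χ : ℂ) ∧
        ((x χ : ℤ) - c χ - 2 * (g χ : ℤ)) % 4 = 0) ∧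
      T.card = 3 ∧
      (∀ χ : Cfsg.IrrCharacter G, χ ∈ T ↔
        χ ∈ Cfsg.principalBlock M G ∧ χ ≠ trivIrr G ∧ c χ ≠ 0) ∧
      ∀ χ ∈ T, (c χ = 1 ∨ c χ = -1) ∧ g χ = 0 := by
  classical
  letI := Fintype.ofFinite G
  have := Cfsg.Agent.Lib.Helper81.irr_finite (G := G)
  letI := Fintype.ofFinite (Cfsg.IrrCharacter G)
  have hPr := isPrime_of_isPModular hM
  haveI : Fact (Nat.Prime 2) := ⟨Nat.prime_two⟩
  choose x c g hx0 hx hc hg hmod using q8c_data S e u hu hu4 hfus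
  obtain ⟨z, hzS, hzo, -, -, h4, -⟩ := q8s_center S e
  have hz : u * u = z := h4 u hu hu4
  have hzz : z⁻¹ = z := by
    have h1 : z * z = 1 := by
      have := pow_orderOf_eq_one z
      rwa [hzo, pow_two] at this
    exact inv_eq_of_mul_eq_one_left h1
  have hgz : ∀ χ : Cfsg.IrrCharacter G, (χ : G → ℂ) z = (x χ : ℂ) - 4 * (g χ : ℂ) := by
    intro χ
    rw [← hz]
    exact hg χ
  -- the principal block as a finset
  obtain ⟨B, hB⟩ : ∃ B : Finset (Cfsg.IrrCharacter G),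
      B = Finset.univ.filter (fun χ : Cfsg.IrrCharacter G => χ ∈ Cfsg.principalBlock M G) :=
    ⟨_, rfl⟩
  have hBmem : ∀ χ : Cfsg.IrrCharacter G, χ ∈ B ↔ χ ∈ Cfsg.principalBlock M G := by
    intro χ
    rw [hB]
    simp
  have htB : trivIrr G ∈ B := (hBmem _).mpr (trivIrr_mem_principalBlock hPr)
  have hfin : ∀ f : Cfsg.IrrCharacter G → ℂ,
      ∑ᶠ χ ∈ Cfsg.principalBlock M G, f χ = ∑ χ ∈ B, f χ := by
    intro f
    rw [finsum_mem_eq_sum_ite, ← Finset.sum_filter, ← hB]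
  -- data of the trivial character
  have hxt : x (trivIrr G) = 1 := by
    have h1 := hx (trivIrr G)
    rw [trivIrr_apply] at h1
    exact_mod_cast h1.symm
  have hct : c (trivIrr G) = 1 := by
    have h1 := hc (trivIrr G)
    rw [trivIrr_apply] at h1
    exact_mod_cast h1.symm
  have hgt : g (trivIrr G) = 0 := by
    have h1 := hgz (trivIrr G)
    rw [trivIrr_apply, hxt] at h1
    have h2 : ((g (trivIrr G) : ℕ) : ℂ) = 0 := by
      push_cast at h1
      linear_combination (1 / 4 : ℂ) * h1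
    exact_mod_cast h2
  -- 2-parts
  have hPu : Cfsg.IsPPart 2 u u :=
    ⟨1, mul_one u, Commute.one_right u, ⟨2, by rw [hu4]; norm_num⟩, by rw [orderOf_one]; norm_num⟩
  have hP1 : Cfsg.IsPPart 2 (1 : G) 1 :=
    ⟨1, mul_one 1, Commute.one_right 1, ⟨0, by simp⟩, by rw [orderOf_one]; norm_num⟩
  have hPz : Cfsg.IsPPart 2 z z :=
    ⟨1, mul_one z, Commute.one_right z, ⟨1, by rw [hzo]; norm_num⟩, by rw [orderOf_one]; norm_num⟩
  have hu1 : ¬ IsConj u 1 := by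
    rw [isConj_one_left]
    intro h
    rw [h, orderOf_one] at hu4
    omega
  have huz : ¬ IsConj u z := by
    intro h
    rw [isConj_iff] at h
    obtain ⟨k, hk⟩ := h
    have : orderOf z = orderOf u := by rw [← hk, orderOf_conj_eq_h73]
    rw [hzo, hu4] at this
    omega
  -- the three relations over ℂ
  have R1c : ∑ χ ∈ B, (c χ : ℂ) * (x χ : ℂ) = 0 := by
    have h := block_orth_sum hM (Cfsg.principalBlock M G) (isPBlock_principalBlock M) hPu hP1 hu1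
    rw [hfin] at h
    rw [← h]
    refine Finset.sum_congr rfl (fun χ _ => ?_)
    rw [hc, inv_one, hx]
  have R2c : ∑ χ ∈ B, (c χ : ℂ) * ((x χ : ℂ) - 4 * (g χ : ℂ)) = 0 := by
    have h := block_orth_sum hM (Cfsg.principalBlock M G) (isPBlock_principalBlock M) hPu hPz huz
    rw [hfin] at h
    rw [← h]
    refine Finset.sum_congr rfl (fun χ _ => ?_)
    rw [hc, hzz, hgz]
  have R3c : ∑ χ ∈ B, (c χ : ℂ) *
      (((x χ : ℂ) - 4 * (g χ : ℂ)) * ((x χ : ℂ) - 4 * (g χ : ℂ)) / (x χ : ℂ)) = 0 := by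
    have h := q8c_rel3 S e M hM u z (by rw [hu4]; norm_num) hzo B hBmem
    rw [← h]
    refine Finset.sum_congr rfl (fun χ _ => ?_)
    rw [hc, hgz, hx]
  -- the bound from the section norm
  obtain ⟨P, hPc, hP4⟩ := q8s_centralizer_sylow S e u hu hu4
  have hcore := card_pPrimeCore_mul_of_cyclic_sylow P hPc
  rw [hP4] at hcore
  obtain ⟨r, hr4, hr⟩ := principal_degree_bound M hM hcore
  have hnorm := section_norm 2 M hM u ⟨2, by rw [hu4]; norm_num⟩
    (1 : ↥(Subgroup.centralizer ({u} : Set G))) (by rw [orderOf_one]; norm_num)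
  rw [hfin] at hnorm
  have hsq : ∑ χ ∈ B, (c χ : ℂ) * (c χ : ℂ) = (r : ℂ) := by
    rw [← hr]
    have h1 : ∑ᶠ ξ ∈ Cfsg.principalBlock M ↥(Subgroup.centralizer ({u} : Set G)),
        (ξ : ↥(Subgroup.centralizer ({u} : Set G)) → ℂ) 1 *
          (ξ : ↥(Subgroup.centralizer ({u} : Set G)) → ℂ) 1⁻¹ =
        ∑ᶠ ξ ∈ Cfsg.principalBlock M ↥(Subgroup.centralizer ({u} : Set G)),
        (ξ : ↥(Subgroup.centralizer ({u} : Set G)) → ℂ) 1 *
          (ξ : ↥(Subgroup.centralizer ({u} : Set G)) → ℂ) 1 := by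
      simp only [inv_one]
    rw [← h1, ← hnorm]
    refine Finset.sum_congr rfl (fun χ _ => ?_)
    simp only [OneMemClass.coe_one, mul_one]
    rw [hc]
    simp
  -- integer versions
  have hsqZ : ∑ χ ∈ B, c χ * c χ = (r : ℤ) := by exact_mod_cast hsq
  have R1 : ∑ χ ∈ B, c χ * (x χ : ℤ) = 0 := by exact_mod_cast R1c
  have R2 : ∑ χ ∈ B, c χ * ((x χ : ℤ) - 4 * (g χ : ℤ)) = 0 := by exact_mod_cast R2c
  have R2' : ∑ χ ∈ B, c χ * (g χ : ℤ) = 0 := by
    have h1 : ∑ χ ∈ B, c χ * ((x χ : ℤ) - 4 * (g χ : ℤ)) =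
        ∑ χ ∈ B, c χ * (x χ : ℤ) - 4 * ∑ χ ∈ B, c χ * (g χ : ℤ) := by
      rw [Finset.mul_sum, ← Finset.sum_sub_distrib]
      refine Finset.sum_congr rfl (fun χ _ => ?_)
      ring
    rw [R2, R1] at h1
    omega
  have R3q : ∑ χ ∈ B, (c χ : ℚ) *
      (((x χ : ℚ) - 4 * (g χ : ℚ)) * ((x χ : ℚ) - 4 * (g χ : ℚ)) / (x χ : ℚ)) = 0 := by
    have h1 : ((∑ χ ∈ B, (c χ : ℚ) *
        (((x χ : ℚ) - 4 * (g χ : ℚ)) * ((x χ : ℚ) - 4 * (g χ : ℚ)) / (x χ : ℚ)) : ℚ) : ℂ) = 0 := by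
      push_cast
      exact R3c
    exact_mod_cast h1
  have R3' : ∑ χ ∈ B, (c χ : ℚ) * ((g χ : ℤ) : ℚ) ^ 2 / ((x χ : ℤ) : ℚ) = 0 := by
    have h1 : ∑ χ ∈ B, (c χ : ℚ) *
        (((x χ : ℚ) - 4 * (g χ : ℚ)) * ((x χ : ℚ) - 4 * (g χ : ℚ)) / (x χ : ℚ)) =
        ((∑ χ ∈ B, c χ * (x χ : ℤ) : ℤ) : ℚ) - 8 * ((∑ χ ∈ B, c χ * (g χ : ℤ) : ℤ) : ℚ) +
          16 * ∑ χ ∈ B, (c χ : ℚ) * ((g χ : ℤ) : ℚ) ^ 2 / ((x χ : ℤ) : ℚ) := by
      push_cast
      rw [Finset.mul_sum, Finset.mul_sum, ← Finset.sum_sub_distrib, ← Finset.sum_add_distrib]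
      refine Finset.sum_congr rfl (fun χ _ => ?_)
      have hx' : (x χ : ℚ) ≠ 0 := by
        have := hx0 χ
        positivity
      field_simp
      ring
    rw [R3q, R1, R2'] at h1
    simp only [Int.cast_zero, mul_zero, sub_zero, zero_add] at h1
    linarith
  -- remove the trivial character and the characters vanishing at u
  obtain ⟨T, hT⟩ : ∃ T : Finset (Cfsg.IrrCharacter G),
      T = (B.erase (trivIrr G)).filter (fun χ => c χ ≠ 0) := ⟨_, rfl⟩
  have hsplit : ∀ f : Cfsg.IrrCharacter G → ℤ,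
      ∑ χ ∈ B, c χ * f χ = f (trivIrr G) + ∑ χ ∈ T, c χ * f χ := by
    intro f
    rw [← Finset.add_sum_erase B _ htB, hct, one_mul, hT]
    congr 1
    symm
    apply Finset.sum_filter_of_ne
    intro χ _ hne hc0
    apply hne
    rw [hc0, zero_mul]
  have hsplitq : ∀ f : Cfsg.IrrCharacter G → ℚ,
      ∑ χ ∈ B, (c χ : ℚ) * f χ = f (trivIrr G) + ∑ χ ∈ T, (c χ : ℚ) * f χ := by
    intro f
    rw [← Finset.add_sum_erase B _ htB, hct, Int.cast_one, one_mul, hT]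
    congr 1
    symm
    apply Finset.sum_filter_of_ne
    intro χ _ hne hc0
    apply hne
    rw [hc0, Int.cast_zero, zero_mul]
  have hTsq : ∑ χ ∈ T, c χ * c χ ≤ 3 := by
    have h1 := hsplit c
    rw [hsqZ, hct] at h1
    have : (r : ℤ) ≤ 4 := by exact_mod_cast hr4
    omega
  have hTc : ∀ χ ∈ T, c χ = 1 ∨ c χ = -1 := by
    intro χ hχ
    have hne : c χ ≠ 0 := by
      rw [hT] at hχ
      exact (Finset.mem_filter.mp hχ).2
    have h1 : c χ * c χ ≤ ∑ χ ∈ T, c χ * c χ :=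
      Finset.single_le_sum (f := fun χ => c χ * c χ) (fun i _ => mul_self_nonneg _) hχ
    have h2 : c χ * c χ ≤ 3 := le_trans h1 hTsq
    have h3 : -2 < c χ := by nlinarith
    have h4' : c χ < 2 := by nlinarith
    omega
  have hTcard : T.card ≤ 3 := by
    have h1 : (T.card : ℤ) = ∑ χ ∈ T, c χ * c χ := by
      rw [Finset.card_eq_sum_ones]
      push_cast
      refine Finset.sum_congr rfl (fun χ hχ => ?_)
      rcases hTc χ hχ with h | h <;> rw [h] <;> norm_num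
    omega
  have hR1 : 1 + ∑ χ ∈ T, c χ * (x χ : ℤ) = 0 := by
    have h1 := hsplit (fun χ => (x χ : ℤ))
    rw [R1, hxt] at h1
    push_cast at h1
    linarith
  have hR2 : ∑ χ ∈ T, c χ * (g χ : ℤ) = 0 := by
    have h1 := hsplit (fun χ => (g χ : ℤ))
    rw [R2', hgt] at h1
    push_cast at h1
    linarith
  have hR3 : ∑ χ ∈ T, (c χ : ℚ) * ((g χ : ℤ) : ℚ) ^ 2 / ((x χ : ℤ) : ℚ) = 0 := by
    have h1 := hsplitq (fun χ => ((g χ : ℤ) : ℚ) ^ 2 / ((x χ : ℤ) : ℚ))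
    have h2 : ∀ χ : Cfsg.IrrCharacter G, (c χ : ℚ) * ((g χ : ℤ) : ℚ) ^ 2 / ((x χ : ℤ) : ℚ) =
        (c χ : ℚ) * (((g χ : ℤ) : ℚ) ^ 2 / ((x χ : ℤ) : ℚ)) := fun χ => by ring
    rw [Finset.sum_congr rfl (fun χ _ => h2 χ)] at R3'
    rw [Finset.sum_congr rfl (fun χ _ => h2 χ)]
    rw [R3', hgt] at h1
    simp only [Nat.cast_zero, Int.cast_zero, ne_eq, OfNat.ofNat_ne_zero, not_false_eq_true,
      zero_pow, zero_div, zero_add] at h1
    exact h1.symm
  obtain ⟨hT3, hTg⟩ := q8a_core_full T hTcard c (fun χ => (x χ : ℤ)) (fun χ => (g χ : ℤ)) hTc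
    (fun χ _ => by have := hx0 χ; omega) (fun χ _ => by positivity) (fun χ _ => hmod χ)
    hR1 hR2 hR3
  refine ⟨x, c, g, T, fun χ => ⟨hx0 χ, hx χ, hc χ, hg χ, hmod χ⟩, hT3, ?_, ?_⟩
  · intro χ
    rw [hT, Finset.mem_filter, Finset.mem_erase, hBmem]
    tauto
  · intro χ hχ
    refine ⟨hTc χ hχ, ?_⟩
    exact_mod_cast hTg χ hχ

end block

end Cfsg.Agent.Lib.Helper73
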