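import Mathlib
import Cfsg.Prelude.Def_Blocks
import Cfsg.Agent.Lib.Helper73.Q8Block
import Cfsg.Agent.Lib.Helper73.Q8Core
import Cfsg.Agent.Lib.Helper3.BSWrap
import Cfsg.Agent.Lib.Helper65.Q8Sylow
import Cfsg.Agent.Lib.Helper77.IdemCalc
import Cfsg.Agent.Lib.Helper77.ThirdMain
import Cfsg.Agent.Lib.Helper78.LocalIdeal
import Cfsg.Agent.S0942

/-!
# The principal `2`-block of a group with Sylow `2`-subgroup `Q₈` has seven characters

`G` finite with Sylow `2`-subgroup `S ≅ Q₈`, no nontrivial normal subgroup of odd order, and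
`G ≠ S`.  Then the principal `2`-block of `G` has exactly seven irreducible characters.
-/

set_option autoImplicit false

namespace Cfsg.Agent.Lib.Helper73

open Cfsg Cfsg.Agent.Lib.Helper16 Cfsg.Agent.Lib.Helper77

universe u

/-- the value of an irreducible character at a central element times another element -/
theorem irr_central_mul_h73 {G : Type*} [Group G] [Finite G] (χ : Cfsg.IrrCharacter G) (z : G)
    (hz : z ∈ Subgroup.center G) (a : G) :
    (χ : G → ℂ) (z * a) * (χ : G → ℂ) 1 = (χ : G → ℂ) z * (χ : G → ℂ) a := by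
  classical
  letI := Fintype.ofFinite G
  have h1 := Cfsg.Agent.Lib.Helper81.irr_sum_conj χ a z
  have h2 : ∀ y : G, (χ : G → ℂ) (a * (y * z * y⁻¹)) = (χ : G → ℂ) (z * a) := by
    intro y
    have h3 : y * z * y⁻¹ = z := by
      rw [Subgroup.mem_center_iff.mp hz y]; group
    rw [h3, Subgroup.mem_center_iff.mp hz a]
  rw [Finset.sum_congr rfl (fun y _ => h2 y), Finset.sum_const, Finset.card_univ, nsmul_eq_mul,
    ← Nat.card_eq_fintype_card] at h1
  have hG : (Nat.card G : ℂ) ≠ 0 := by exact_mod_cast Nat.card_pos.ne'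
  have h10 := Cfsg.Agent.Lib.Helper81.irr_one_ne_zero χ
  have h4 : (Nat.card G : ℂ) * ((χ : G → ℂ) (z * a) * (χ : G → ℂ) 1) =
      (Nat.card G : ℂ) * ((χ : G → ℂ) z * (χ : G → ℂ) a) := by
    rw [← mul_assoc, h1]
    field_simp
  exact mul_left_cancel₀ hG h4

section count

variable {G : Type u} [Group G] [Finite G] (S : Sylow 2 G)
  (e : ↥(S : Subgroup G) ≃* QuaternionGroup 2)

include e

/-- without nontrivial normal subgroups of odd order, the involution of `S` is central -/
theorem q8n_central (hO : ∀ N : Subgroup G, N.Normal → Odd (Nat.card N) → N = ⊥) (z : G)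
    (hzS : z ∈ (S : Subgroup G)) (hzo : orderOf z = 2) : z ∈ Subgroup.center G := by
  have hcard : Nat.card (Subgroup.center G) = 2 :=
    Cfsg.Agent.Lib.Helper3.bs_center_of_q8
      (fun S e => q8_exists_proper_normal S e) S 0 e hO
  have hnt : Nontrivial (Subgroup.center G) := by
    rw [← Finite.one_lt_card_iff_nontrivial, hcard]; norm_num
  obtain ⟨t, ht⟩ := exists_ne (1 : Subgroup.center G)
  have hto : orderOf (t : G) = 2 := by
    rw [Subgroup.orderOf_coe]
    have h1 : orderOf t ∣ 2 := by rw [← hcard]; exact orderOf_dvd_natCard t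
    rcases (Nat.dvd_prime Nat.prime_two).mp h1 with h | h
    · exact absurd (orderOf_eq_one_iff.mp h) ht
    · exact h
  obtain ⟨k, hk⟩ := conj_mem_sylow_of_orderOf_two S (t : G) hto
  have h2 : k * (t : G) * k⁻¹ = (t : G) := by
    rw [Subgroup.mem_center_iff.mp t.2 k]; group
  rw [h2] at hk
  have h3 : (t : G) = z := q8s_huniq S e _ _ hk hzS hto hzo
  rw [← h3]
  exact t.2

/-- no normal `2`-complement -/
theorem q8n_no_complement (hO : ∀ N : Subgroup G, N.Normal → Odd (Nat.card N) → N = ⊥)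
    (hG : (S : Subgroup G) ≠ ⊤) : ¬ Cfsg.HasNormalPComplement 2 G := by
  haveI : Fact (Nat.Prime 2) := ⟨Nat.prime_two⟩
  rintro ⟨P, N, hN, hc⟩
  have h1 : Nat.card N * Nat.card (P : Subgroup G) = Nat.card G := hc.card_mul_card
  have hP : Nat.card (P : Subgroup G) = 8 := by
    rw [Sylow.card_eq_multiplicity, ← Sylow.card_eq_multiplicity S]
    exact q8s_card S e
  have hind : ¬ 2 ∣ (S : Subgroup G).index := S.not_dvd_index
  have h2 : Nat.card (S : Subgroup G) * (S : Subgroup G).index = Nat.card G :=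
    Subgroup.card_mul_index _
  rw [q8s_card S e] at h2
  rw [hP] at h1
  have hodd : Odd (Nat.card N) := by
    rw [Nat.odd_iff]
    omega
  have hbot := hO N hN hodd
  rw [hbot, Subgroup.card_bot] at h1
  apply hG
  rw [← Subgroup.card_eq_iff_eq_top, q8s_card S e]
  omega

/-- in the principal block, the value at an element whose `2`-part has order four -/
theorem q8n_val4 (M : Ideal Cfsg.AlgInt) (hM : Cfsg.IsPModular 2 M)
    (hnc : ¬ Cfsg.HasNormalPComplement 2 G) (z u : G) (hzS : z ∈ (S : Subgroup G))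
    (hzo : orderOf z = 2) (hzc : z ∈ Subgroup.center G) (hu4 : orderOf u = 4)
    (w : G) (h0 : 2 ∣ orderOf w) (h1 : 2 ∣ orderOf (z * w)) (χ : Cfsg.IrrCharacter G)
    (hχ : χ ∈ Cfsg.principalBlock M G) : (χ : G → ℂ) w = (χ : G → ℂ) u := by
  haveI : Fact (Nat.Prime 2) := ⟨Nat.prime_two⟩
  obtain ⟨t, y, hty, hcomm, ⟨k, hk⟩, hy⟩ := Cfsg.Agent.Lib.Helper78.exists_isPPart Nat.prime_two w
  obtain ⟨a, ha⟩ := Cfsg.Agent.Lib.Helper65.exists_conj_mem_sylow_of_pow S t k
    (by rw [← hk]; exact pow_orderOf_eq_one t)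
  obtain ⟨z', hz'S, hz'o, -, h2, -, hord⟩ := q8s_center S e
  have hzz' : z' = z := (h2 z hzS hzo).symm
  rw [hzz'] at hord
  have hzz : z * z = 1 := by
    have := pow_orderOf_eq_one z
    rwa [hzo, pow_two] at this
  by_cases ht1 : a * t * a⁻¹ = 1
  · exfalso
    have h3 : t = 1 := by
      have h4 : t = a⁻¹ * (a * t * a⁻¹) * a := by group
      rw [h4, ht1]; group
    rw [h3, one_mul] at hty
    rw [← hty] at h0
    exact hy h0
  by_cases htz : a * t * a⁻¹ = z
  · exfalso
    have h3 : t = z := by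
      have h4 : t = a⁻¹ * (a * t * a⁻¹) * a := by group
      rw [h4, htz, Subgroup.mem_center_iff.mp hzc a⁻¹]; group
    rw [h3] at hty
    rw [← hty, ← mul_assoc, hzz, one_mul] at h1
    exact hy h1
  have ht4 : orderOf t = 4 := by
    have h3 := hord _ ha ht1 htz
    rwa [orderOf_conj_eq_h73] at h3
  have hut := Cfsg.Agent.Lib.Helper65.q8Sylow_isConj_of_orderOf_four S e hnc u t hu4 ht4
  have hyc := Cfsg.Agent.Lib.Helper65.q8Sylow_mem_centralizerPPrimeCore S e ht4 hcomm
    (Nat.odd_iff.mpr (by omega))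
  rw [← hty, Cfsg.Agent.S0942.result 2 M hM t ⟨2, by rw [ht4]; norm_num⟩ y hyc χ hχ]
  exact (Cfsg.Agent.Lib.Helper79.irr_eq_of_isConj χ.2 hut).symm

end count

end Cfsg.Agent.Lib.Helper73
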