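import Mathlib
import Cfsg.Prelude.Def_Blocks
import Cfsg.Agent.Lib.Helper73.Q8Count

/-!
# The principal `2`-block of a group with Sylow `2`-subgroup `Q₈` has seven characters

`G` finite with Sylow `2`-subgroup `S ≅ Q₈`, no nontrivial normal subgroup of odd order, and
`G ≠ S`.  Then the principal `2`-block of `G` has exactly seven irreducible characters: the
principal character, three further characters not vanishing at the elements of order four (they
have the central involution in their kernel) and three characters vanishing there (they are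
faithful on the central involution).
-/

set_option autoImplicit false

namespace Cfsg.Agent.Lib.Helper73

open Cfsg Cfsg.Agent.Lib.Helper16 Cfsg.Agent.Lib.Helper77

universe u

set_option maxHeartbeats 1600000 in
/-- **Seven characters in the principal `2`-block.** -/
theorem q8_principal_block_card {G : Type u} [Group G] [Finite G] (M : Ideal Cfsg.AlgInt)
    (hM : Cfsg.IsPModular 2 M) (S : Sylow 2 G) (e : ↥(S : Subgroup G) ≃* QuaternionGroup 2)
    (hO : ∀ N : Subgroup G, N.Normal → Odd (Nat.card N) → N = ⊥)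
    (hG : (S : Subgroup G) ≠ ⊤) : Nat.card (Cfsg.principalBlock M G) = 7 := by
  classical
  letI := Fintype.ofFinite G
  have := Cfsg.Agent.Lib.Helper81.irr_finite (G := G)
  letI := Fintype.ofFinite (Cfsg.IrrCharacter G)
  have hPr := isPrime_of_isPModular hM
  haveI : Fact (Nat.Prime 2) := ⟨Nat.prime_two⟩
  have hnc := q8n_no_complement S e hO hG
  obtain ⟨z, hzS, hzo, -, -, h4, -⟩ := q8s_center S e
  have hzc : z ∈ Subgroup.center G := q8n_central S e hO z hzS hzo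
  obtain ⟨u, hu, hu4⟩ : ∃ u ∈ (S : Subgroup G), orderOf u = 4 := by
    rcases q8s_fusion S e with ⟨u, hu, hu4, -⟩ | ⟨u, hu, hu4, -⟩ <;> exact ⟨u, hu, hu4⟩
  have hfus : ∀ v ∈ (S : Subgroup G), orderOf v = 4 → IsConj u v := fun v _ hv =>
    Cfsg.Agent.Lib.Helper65.q8Sylow_isConj_of_orderOf_four S e hnc u v hu4 hv
  obtain ⟨x, c, g, T, hdata, hT3, hTmem, hTval⟩ := q8b_struct S e M hM u hu hu4 hfus
  have hz : u * u = z := h4 u hu hu4
  have hzz : z * z = 1 := by
    have := pow_orderOf_eq_one z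
    rwa [hzo, pow_two] at this
  have hzinv : z⁻¹ = z := inv_eq_of_mul_eq_one_left hzz
  have hzcomm : ∀ a : G, a * z = z * a := fun a => Subgroup.mem_center_iff.mp hzc a
  have hx0 : ∀ χ : Cfsg.IrrCharacter G, 0 < x χ := fun χ => (hdata χ).1
  have hx : ∀ χ : Cfsg.IrrCharacter G, (χ : G → ℂ) 1 = (x χ : ℂ) := fun χ => (hdata χ).2.1
  have hc : ∀ χ : Cfsg.IrrCharacter G, (χ : G → ℂ) u = (c χ : ℂ) := fun χ => (hdata χ).2.2.1
  have hgz : ∀ χ : Cfsg.IrrCharacter G, (χ : G → ℂ) z = (x χ : ℂ) - 4 * (g χ : ℂ) := by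
    intro χ
    rw [← hz]
    exact (hdata χ).2.2.2.1
  have hxne : ∀ χ : Cfsg.IrrCharacter G, (x χ : ℂ) ≠ 0 := by
    intro χ
    have := hx0 χ
    exact_mod_cast this.ne'
  -- values at `z * a`
  have hcen : ∀ (χ : Cfsg.IrrCharacter G) (a : G), (χ : G → ℂ) (z * a) * (x χ : ℂ) =
      ((x χ : ℂ) - 4 * (g χ : ℂ)) * (χ : G → ℂ) a := by
    intro χ a
    have h1 := irr_central_mul_h73 χ z hzc a
    rw [hx, hgz] at h1
    exact h1
  have hgcases : ∀ χ : Cfsg.IrrCharacter G, g χ = 0 ∨ x χ = 2 * g χ := by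
    intro χ
    have h1 := hcen χ z
    rw [hzz, hx, hgz] at h1
    have h2 : (x χ : ℤ) * (x χ : ℤ) = ((x χ : ℤ) - 4 * (g χ : ℤ)) * ((x χ : ℤ) - 4 * (g χ : ℤ)) := by
      exact_mod_cast h1
    have h3 : (8 : ℤ) * ((g χ : ℤ) * (2 * (g χ : ℤ) - (x χ : ℤ))) = 0 := by
      linear_combination (-1 : ℤ) * h2
    rcases mul_eq_zero.mp h3 with h | h
    · omega
    · rcases mul_eq_zero.mp h with h | h
      · left; exact_mod_cast h
      · right; omega
  obtain ⟨eps, heps⟩ : ∃ eps : Cfsg.IrrCharacter G → ℤ,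
      eps = fun χ => if g χ = 0 then 1 else -1 := ⟨_, rfl⟩
  have heps_val : ∀ (χ : Cfsg.IrrCharacter G) (a : G),
      (χ : G → ℂ) (z * a) = (eps χ : ℂ) * (χ : G → ℂ) a := by
    intro χ a
    have h1 := hcen χ a
    apply mul_right_cancel₀ (hxne χ)
    rw [h1, heps]
    by_cases hg0 : g χ = 0
    · simp only [hg0, if_true]
      push_cast
      ring
    · simp only [hg0, if_false]
      have h2 : x χ = 2 * g χ := (hgcases χ).resolve_left hg0
      rw [h2]
      push_cast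
      ring
  have heps_sq : ∀ χ : Cfsg.IrrCharacter G, (eps χ : ℂ) * (eps χ : ℂ) = 1 := by
    intro χ
    rw [heps]
    by_cases hg0 : g χ = 0
    · simp [hg0]
    · simp [hg0]
  have hzwinv : ∀ w : G, (z * w)⁻¹ = z * w⁻¹ := by
    intro w
    rw [mul_inv_rev, hzinv, hzcomm]
  -- the principal block as a finset
  obtain ⟨B, hB⟩ : ∃ B : Finset (Cfsg.IrrCharacter G),
      B = Finset.univ.filter (fun χ : Cfsg.IrrCharacter G => χ ∈ Cfsg.principalBlock M G) :=
    ⟨_, rfl⟩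
  have hBmem : ∀ χ : Cfsg.IrrCharacter G, χ ∈ B ↔ χ ∈ Cfsg.principalBlock M G := by
    intro χ
    rw [hB]
    simp
  have htB : trivIrr G ∈ B := (hBmem _).mpr (trivIrr_mem_principalBlock hPr)
  have hfin : ∀ f : Cfsg.IrrCharacter G → ℂ,
      ∑ᶠ χ ∈ Cfsg.principalBlock M G, f χ = ∑ χ ∈ B, f χ := by
    intro f
    rw [finsum_mem_eq_sum_ite, ← Finset.sum_filter, ← hB]
  -- data of the trivial character
  have hxt : x (trivIrr G) = 1 := by
    have h1 := hx (trivIrr G)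
    rw [trivIrr_apply] at h1
    exact_mod_cast h1.symm
  have hct : c (trivIrr G) = 1 := by
    have h1 := hc (trivIrr G)
    rw [trivIrr_apply] at h1
    exact_mod_cast h1.symm
  have hgt : g (trivIrr G) = 0 := by
    have h1 := hgz (trivIrr G)
    rw [trivIrr_apply, hxt] at h1
    have h2 : ((g (trivIrr G) : ℕ) : ℂ) = 0 := by
      push_cast at h1
      linear_combination (1 / 4 : ℂ) * h1
    exact_mod_cast h2
  -- splitting the block
  obtain ⟨Z, hZ⟩ : ∃ Z : Finset (Cfsg.IrrCharacter G),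
      Z = (B.erase (trivIrr G)).filter (fun χ => ¬ c χ ≠ 0) := ⟨_, rfl⟩
  have hTeq : T = (B.erase (trivIrr G)).filter (fun χ => c χ ≠ 0) := by
    ext χ
    rw [hTmem, Finset.mem_filter, Finset.mem_erase, hBmem]
    tauto
  have hZmem : ∀ χ : Cfsg.IrrCharacter G, χ ∈ Z → χ ∈ B ∧ c χ = 0 := by
    intro χ hχ
    rw [hZ, Finset.mem_filter, Finset.mem_erase] at hχ
    exact ⟨hχ.1.2, not_not.mp hχ.2⟩
  have hTB : ∀ χ : Cfsg.IrrCharacter G, χ ∈ T → χ ∈ B := by
    intro χ hχ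
    rw [hTmem] at hχ
    exact (hBmem χ).mpr hχ.1
  have hsplit : ∀ f : Cfsg.IrrCharacter G → ℤ,
      ∑ χ ∈ B, f χ = f (trivIrr G) + ∑ χ ∈ T, f χ + ∑ χ ∈ Z, f χ := by
    intro f
    rw [← Finset.add_sum_erase B _ htB, hTeq, hZ, add_assoc,
      Finset.sum_filter_add_sum_filter_not]
  have hsq4 : ∑ χ ∈ B, c χ * c χ = 4 := by
    rw [hsplit (fun χ => c χ * c χ), hct]
    have h1 : ∑ χ ∈ T, c χ * c χ = ∑ χ ∈ T, 1 := by
      refine Finset.sum_congr rfl (fun χ hχ => ?_)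
      rcases (hTval χ hχ).1 with h | h <;> rw [h] <;> norm_num
    have h2 : ∑ χ ∈ Z, c χ * c χ = 0 := by
      refine Finset.sum_eq_zero (fun χ hχ => ?_)
      rw [(hZmem χ hχ).2, mul_zero]
    rw [h1, h2, Finset.sum_const, hT3]
    norm_num
  have hsq4c : ∑ χ ∈ B, (c χ : ℂ) * (c χ : ℂ) = 4 := by exact_mod_cast hsq4
  -- the three kinds of elements
  obtain ⟨A₀, hA₀⟩ : ∃ A₀ : Finset G, A₀ = Finset.univ.filter (fun w : G => ¬ 2 ∣ orderOf w) :=
    ⟨_, rfl⟩
  obtain ⟨A₄, hA₄⟩ : ∃ A₄ : Finset G, A₄ = Finset.univ.filter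
      (fun w : G => 2 ∣ orderOf w ∧ 2 ∣ orderOf (z * w)) := ⟨_, rfl⟩
  have hA₀mem : ∀ w : G, w ∈ A₀ ↔ ¬ 2 ∣ orderOf w := by
    intro w
    rw [hA₀]
    simp
  have hA₄mem : ∀ w : G, w ∈ A₄ ↔ 2 ∣ orderOf w ∧ 2 ∣ orderOf (z * w) := by
    intro w
    rw [hA₄]
    simp
  have hdisj : ∀ w : G, ¬ 2 ∣ orderOf w → ¬ 2 ∣ orderOf (z * w) → False := by
    intro w h1 h2
    have hcz : Commute z w := (hzcomm w).symm
    have h3 : (z * w) ^ (orderOf w * orderOf (z * w)) = 1 := by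
      rw [mul_comm, pow_mul, pow_orderOf_eq_one, one_pow]
    have h4' : (z * w) ^ (orderOf w * orderOf (z * w)) = z ^ (orderOf w * orderOf (z * w)) := by
      rw [hcz.mul_pow, pow_mul w, pow_orderOf_eq_one, one_pow, mul_one]
    have hodd : Odd (orderOf w * orderOf (z * w)) := by
      apply Odd.mul
      · rw [Nat.odd_iff]; omega
      · rw [Nat.odd_iff]; omega
    obtain ⟨k, hk⟩ := hodd
    have h5 : z ^ (orderOf w * orderOf (z * w)) = z := by
      rw [hk, pow_succ, pow_mul, pow_two, hzz, one_pow, one_mul]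
    rw [h4', h5] at h3
    rw [h3, orderOf_one] at hzo
    omega
  have hpart : ∀ f : G → ℂ, ∑ w : G, f w =
      ∑ w ∈ A₀, f w + ∑ w ∈ A₀, f (z * w) + ∑ w ∈ A₄, f w := by
    intro f
    have h1 : ∑ w ∈ A₀, f (z * w) =
        ∑ w ∈ Finset.univ.filter (fun w : G => ¬ 2 ∣ orderOf (z * w)), f w := by
      apply Finset.sum_equiv (Equiv.mulLeft z)
      · intro w
        rw [hA₀mem, Finset.mem_filter]
        simp only [Finset.mem_univ, true_and, Equiv.coe_mulLeft]
        rw [← mul_assoc, hzz, one_mul]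
      · intro w _
        rfl
    rw [h1, ← Finset.sum_filter_add_sum_filter_not Finset.univ (fun w : G => ¬ 2 ∣ orderOf w) f,
      ← hA₀, add_assoc]
    congr 1
    rw [← Finset.sum_filter_add_sum_filter_not
      (Finset.univ.filter (fun w : G => ¬ ¬ 2 ∣ orderOf w)) (fun w : G => ¬ 2 ∣ orderOf (z * w)) f]
    congr 1
    · refine Finset.sum_congr ?_ (fun _ _ => rfl)
      ext w
      simp only [Finset.mem_filter, Finset.mem_univ, true_and]
      constructor
      · exact fun h => h.2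
      · intro h
        exact ⟨fun h' => hdisj w h' h, h⟩
    · refine Finset.sum_congr ?_ (fun _ _ => rfl)
      ext w
      rw [hA₄mem]
      simp only [Finset.mem_filter, Finset.mem_univ, true_and, not_not]
  -- values on the elements whose 2-part has order four
  have hval4 : ∀ w ∈ A₄, ∀ χ ∈ B, (χ : G → ℂ) w = (c χ : ℂ) := by
    intro w hw χ hχ
    rw [hA₄mem] at hw
    rw [← hc χ]
    exact q8n_val4 S e M hM hnc z u hzS hzo hzc hu4 w hw.1 hw.2 χ ((hBmem χ).mp hχ)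
  have hval4inv : ∀ w ∈ A₄, ∀ χ ∈ B, (χ : G → ℂ) w⁻¹ = (c χ : ℂ) := by
    intro w hw χ hχ
    rw [Cfsg.Agent.Lib.Helper81.irr_inv, hval4 w hw χ hχ, map_intCast]
  -- 2-parts
  have hPu : Cfsg.IsPPart 2 u u :=
    ⟨1, mul_one u, Commute.one_right u, ⟨2, by rw [hu4]; norm_num⟩, by rw [orderOf_one]; norm_num⟩
  have hP1 : ∀ w : G, ¬ 2 ∣ orderOf w → Cfsg.IsPPart 2 w 1 := fun w hw =>
    ⟨w, one_mul w, Commute.one_left w, ⟨0, by simp⟩, hw⟩
  have hPz : ∀ w : G, ¬ 2 ∣ orderOf w → Cfsg.IsPPart 2 (z * w) z := fun w hw =>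
    ⟨w, rfl, (hzcomm w).symm, ⟨1, by rw [hzo]; norm_num⟩, hw⟩
  have hu1 : ¬ IsConj u 1 := by
    rw [isConj_one_left]
    intro h
    rw [h, orderOf_one] at hu4
    omega
  have huz : ¬ IsConj u z := by
    intro h
    rw [isConj_iff] at h
    obtain ⟨k, hk⟩ := h
    have : orderOf z = orderOf u := by rw [← hk, orderOf_conj_eq_h73]
    rw [hzo, hu4] at this
    omega
  have h1z : ¬ IsConj (1 : G) z := by
    intro h
    have h1 := h.symm
    rw [isConj_one_left] at h1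
    rw [h1, orderOf_one] at hzo
    omega
  have horth0 : ∀ w : G, ¬ 2 ∣ orderOf w → ∑ χ ∈ B, (c χ : ℂ) * (χ : G → ℂ) w⁻¹ = 0 := by
    intro w hw
    have h := Cfsg.Agent.Lib.Helper78.block_orth_sum hM (Cfsg.principalBlock M G)
      (isPBlock_principalBlock M) hPu (hP1 w hw) hu1
    rw [hfin] at h
    rw [← h]
    refine Finset.sum_congr rfl (fun χ _ => ?_)
    rw [hc]
  have horth1 : ∀ w : G, ¬ 2 ∣ orderOf w → ∑ χ ∈ B, (c χ : ℂ) * (χ : G → ℂ) (z * w)⁻¹ = 0 := by
    intro w hw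
    have h := Cfsg.Agent.Lib.Helper78.block_orth_sum hM (Cfsg.principalBlock M G)
      (isPBlock_principalBlock M) hPu (hPz w hw) huz
    rw [hfin] at h
    rw [← h]
    refine Finset.sum_congr rfl (fun χ _ => ?_)
    rw [hc]
  have horth01 : ∀ w : G, ¬ 2 ∣ orderOf w →
      ∑ χ ∈ B, (χ : G → ℂ) w * (χ : G → ℂ) (z * w)⁻¹ = 0 := by
    intro w hw
    have h := Cfsg.Agent.Lib.Helper78.block_orth_sum hM (Cfsg.principalBlock M G)
      (isPBlock_principalBlock M) (hP1 w hw) (hPz w hw) h1z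
    rw [hfin] at h
    exact h
  -- the number of elements whose 2-part has order four
  have hsumχ : ∀ χ : Cfsg.IrrCharacter G, ∑ w : G, (χ : G → ℂ) w⁻¹ =
      if trivIrr G = χ then (Nat.card G : ℂ) else 0 := by
    intro χ
    rw [← Cfsg.Agent.Lib.Helper81.irr_orth (trivIrr G) χ]
    refine Finset.sum_congr rfl (fun w _ => ?_)
    rw [trivIrr_apply, one_mul]
  have hS1 : ∑ w : G, ∑ χ ∈ B, (c χ : ℂ) * (χ : G → ℂ) w⁻¹ = (Nat.card G : ℂ) := by
    rw [Finset.sum_comm]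
    have h1 : ∀ χ ∈ B, ∑ w : G, (c χ : ℂ) * (χ : G → ℂ) w⁻¹ =
        if trivIrr G = χ then (c χ : ℂ) * (Nat.card G : ℂ) else 0 := by
      intro χ _
      rw [← Finset.mul_sum, hsumχ χ]
      split_ifs <;> simp
    rw [Finset.sum_congr rfl h1, Finset.sum_ite_eq B (trivIrr G), if_pos htB, hct]
    simp
  have hA4card : (A₄.card : ℂ) * 4 = (Nat.card G : ℂ) := by
    rw [← hS1, hpart (fun w => ∑ χ ∈ B, (c χ : ℂ) * (χ : G → ℂ) w⁻¹)]
    rw [Finset.sum_eq_zero (fun w hw => horth0 w ((hA₀mem w).mp hw)),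
      Finset.sum_eq_zero (fun w hw => horth1 w ((hA₀mem w).mp hw)), zero_add, zero_add]
    have h1 : ∀ w ∈ A₄, ∑ χ ∈ B, (c χ : ℂ) * (χ : G → ℂ) w⁻¹ = 4 := by
      intro w hw
      rw [← hsq4c]
      refine Finset.sum_congr rfl (fun χ hχ => ?_)
      rw [hval4inv w hw χ hχ]
    rw [Finset.sum_congr rfl h1, Finset.sum_const, nsmul_eq_mul]
  -- the norm on the elements of odd order
  have hS2 : ∀ χ ∈ B, (Nat.card G : ℂ) =
      2 * (∑ w ∈ A₀, (χ : G → ℂ) w * (χ : G → ℂ) w⁻¹) +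
        (c χ : ℂ) * (c χ : ℂ) * (A₄.card : ℂ) := by
    intro χ hχ
    have h1 := Cfsg.Agent.Lib.Helper81.irr_orth χ χ
    rw [if_pos rfl, hpart (fun w => (χ : G → ℂ) w * (χ : G → ℂ) w⁻¹)] at h1
    have h2 : ∀ w ∈ A₀, (χ : G → ℂ) (z * w) * (χ : G → ℂ) (z * w)⁻¹ =
        (χ : G → ℂ) w * (χ : G → ℂ) w⁻¹ := by
      intro w _
      rw [hzwinv w, heps_val χ w, heps_val χ w⁻¹]
      linear_combination ((χ : G → ℂ) w * (χ : G → ℂ) w⁻¹) * heps_sq χ
    have h3 : ∀ w ∈ A₄, (χ : G → ℂ) w * (χ : G → ℂ) w⁻¹ = (c χ : ℂ) * (c χ : ℂ) := by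
      intro w hw
      rw [hval4 w hw χ hχ, hval4inv w hw χ hχ]
    rw [Finset.sum_congr rfl h2, Finset.sum_congr rfl h3, Finset.sum_const, nsmul_eq_mul] at h1
    rw [← h1]
    ring
  have hGne : (Nat.card G : ℂ) ≠ 0 := by exact_mod_cast Nat.card_pos.ne'
  have hA4card' : (A₄.card : ℂ) = (Nat.card G : ℂ) / 4 := by
    rw [← hA4card]
    ring
  have hS3 : ∑ χ ∈ B, (eps χ : ℂ) * ∑ w ∈ A₀, (χ : G → ℂ) w * (χ : G → ℂ) w⁻¹ = 0 := by
    have h1 : ∑ w ∈ A₀, ∑ χ ∈ B, (χ : G → ℂ) w * (χ : G → ℂ) (z * w)⁻¹ = 0 :=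
      Finset.sum_eq_zero (fun w hw => horth01 w ((hA₀mem w).mp hw))
    rw [Finset.sum_comm] at h1
    rw [← h1]
    refine Finset.sum_congr rfl (fun χ _ => ?_)
    rw [Finset.mul_sum]
    refine Finset.sum_congr rfl (fun w _ => ?_)
    rw [hzwinv w, heps_val χ w⁻¹]
    ring
  have hS3' : ∑ χ ∈ B, (eps χ : ℂ) * (4 - (c χ : ℂ) * (c χ : ℂ)) = 0 := by
    have h1 : ∀ χ ∈ B, (eps χ : ℂ) * ∑ w ∈ A₀, (χ : G → ℂ) w * (χ : G → ℂ) w⁻¹ =
        (Nat.card G : ℂ) / 8 * ((eps χ : ℂ) * (4 - (c χ : ℂ) * (c χ : ℂ))) := by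
      intro χ hχ
      have h2 := hS2 χ hχ
      rw [hA4card'] at h2
      have h4' : ∑ w ∈ A₀, (χ : G → ℂ) w * (χ : G → ℂ) w⁻¹ =
          (Nat.card G : ℂ) / 8 * (4 - (c χ : ℂ) * (c χ : ℂ)) := by
        linear_combination (-1 / 2 : ℂ) * h2
      rw [h4']
      ring
    rw [Finset.sum_congr rfl h1, ← Finset.mul_sum] at hS3
    rcases mul_eq_zero.mp hS3 with h | h
    · exfalso
      apply hGne
      linear_combination (8 : ℂ) * h
    · exact h
  have hS3Z : ∑ χ ∈ B, eps χ * (4 - c χ * c χ) = 0 := by exact_mod_cast hS3'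
  -- the number of elements of odd order is odd
  have hA0odd : ¬ 2 ∣ A₀.card := by
    have h1 := hS2 (trivIrr G) htB
    rw [hct] at h1
    simp only [trivIrr_apply, mul_one, Finset.sum_const, nsmul_eq_mul, Int.cast_one, one_mul]
      at h1
    have h2 : Nat.card G = 2 * A₀.card + A₄.card := by exact_mod_cast h1
    have h3 : A₄.card * 4 = Nat.card G := by exact_mod_cast hA4card
    have hind : ¬ 2 ∣ (S : Subgroup G).index := S.not_dvd_index
    have h5 : Nat.card (S : Subgroup G) * (S : Subgroup G).index = Nat.card G :=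
      Subgroup.card_mul_index _
    rw [q8s_card S e] at h5
    omega
  -- no character of the block vanishing at `u` has `z` in its kernel
  have hS4 : ∀ χ ∈ B, c χ = 0 → g χ ≠ 0 := by
    intro χ hχ hc0 hg0
    have hne : χ ≠ trivIrr G := by
      rintro rfl
      rw [hct] at hc0
      exact one_ne_zero hc0
    have h1 := Cfsg.Agent.Lib.Helper81.irr_orth χ (trivIrr G)
    rw [if_neg hne, hpart (fun w => (χ : G → ℂ) w * (trivIrr G : G → ℂ) w⁻¹)] at h1
    simp only [trivIrr_apply, mul_one] at h1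
    have heps1 : eps χ = 1 := by
      rw [heps]
      simp [hg0]
    have h2 : ∀ w ∈ A₀, (χ : G → ℂ) (z * w) = (χ : G → ℂ) w := by
      intro w _
      rw [heps_val, heps1]
      simp
    have h3 : ∀ w ∈ A₄, (χ : G → ℂ) w = 0 := by
      intro w hw
      rw [hval4 w hw χ hχ, hc0]
      simp
    rw [Finset.sum_congr rfl h2, Finset.sum_eq_zero h3, add_zero] at h1
    have h4' : ∑ w ∈ A₀, (χ : G → ℂ) w = 0 := by linear_combination (1 / 2 : ℂ) * h1
    obtain ⟨a, ha⟩ : ∃ a : G → ℂ, a = fun w => if ¬ 2 ∣ orderOf w then 1 else 0 := ⟨_, rfl⟩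
    have hacf : Cfsg.IsClassFunction G a := by
      intro w k
      rw [ha]
      simp only [orderOf_conj_eq_h73]
    have haloc : ∀ w : G, Cfsg.MemLocalRing M (a w) := by
      intro w
      rw [ha]
      by_cases hw : ¬ 2 ∣ orderOf w
      · simp only [hw, not_false_eq_true, if_true]
        exact memLocalRing_one hPr
      · simp only [hw, if_false]
        exact memLocalRing_zero hPr
    have hsb : Cfsg.SameBlock M (trivIrr G : G → ℂ) (χ : G → ℂ) := (hBmem χ).mp hχ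
    have h5 := Cfsg.Agent.Lib.Helper77.memLocalIdeal_omegaF_sub hPr hsb haloc hacf
    rw [omegaF_trivIrr] at h5
    have h6 : omegaF (χ : G → ℂ) a = 0 := by
      unfold omegaF
      rw [ha]
      simp only [ite_mul, one_mul, zero_mul]
      rw [← Finset.sum_filter, ← hA₀, h4', zero_div]
    have h7 : ∑ w : G, a w = (A₀.card : ℂ) := by
      rw [ha, ← Finset.sum_filter, ← hA₀]
      simp
    rw [h6, h7, sub_zero] at h5
    have h8 : Cfsg.MemLocalIdeal M ((A₀.card : ℂ) / ((1 : ℕ) : ℂ)) := by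
      rw [Nat.cast_one, div_one]
      exact h5
    exact hA0odd (Cfsg.Agent.Lib.Helper78.dvd_of_memLocalIdeal_div hM one_ne_zero h8)
  -- counting
  have hcount := hS3Z
  rw [hsplit (fun χ => eps χ * (4 - c χ * c χ)), hct] at hcount
  have hepst : eps (trivIrr G) = 1 := by
    rw [heps]
    simp [hgt]
  have hT9 : ∑ χ ∈ T, eps χ * (4 - c χ * c χ) = ∑ χ ∈ T, 3 := by
    refine Finset.sum_congr rfl (fun χ hχ => ?_)
    have h1 : eps χ = 1 := by
      rw [heps]
      simp [(hTval χ hχ).2]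
    rw [h1]
    rcases (hTval χ hχ).1 with h | h <;> rw [h] <;> norm_num
  have hZ4 : ∑ χ ∈ Z, eps χ * (4 - c χ * c χ) = ∑ χ ∈ Z, (-4) := by
    refine Finset.sum_congr rfl (fun χ hχ => ?_)
    obtain ⟨hχB, hc0⟩ := hZmem χ hχ
    have h1 : eps χ = -1 := by
      rw [heps]
      simp [hS4 χ hχB hc0]
    rw [h1, hc0]
    norm_num
  rw [hepst, hT9, hZ4, Finset.sum_const, Finset.sum_const, hT3] at hcount
  have hZ3 : Z.card = 3 := by
    simp only [nsmul_eq_mul] at hcount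
    push_cast at hcount
    omega
  have hBcard : B.card = 7 := by
    have h1 := hsplit (fun _ => 1)
    simp only [Finset.sum_const, nsmul_eq_mul, mul_one] at h1
    rw [hT3, hZ3] at h1
    push_cast at h1
    omega
  have hset : Cfsg.principalBlock M G = (↑B : Set (Cfsg.IrrCharacter G)) := by
    ext χ
    rw [Finset.mem_coe, hBmem]
  rw [_root_.Nat.card_coe_set_eq, hset, Set.ncard_coe_finset, hBcard]

end Cfsg.Agent.Lib.Helper73
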