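import Mathlib

/-!
# An element of prime order generating its own centralizer: group-theoretic part
-/

set_option autoImplicit false

namespace Cfsg.Agent.Lib.Helper73

section Pz

variable {G : Type*} [Group G] (p : ℕ) [Fact p.Prime]

/-- `x ^ k` for `k : ZMod p`. -/
def pz (x : G) (k : ZMod p) : G := x ^ k.val

variable {p}

theorem pz_add {x : G} (hx : x ^ p = 1) (a b : ZMod p) :
    pz p x (a + b) = pz p x a * pz p x b := by
  unfold pz
  rw [ZMod.val_add, ← pow_add, ← pow_eq_pow_mod _ hx]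

theorem pz_mul {x : G} (hx : x ^ p = 1) (a b : ZMod p) :
    pz p x (a * b) = pz p (pz p x a) b := by
  unfold pz
  rw [ZMod.val_mul, ← pow_mul, ← pow_eq_pow_mod _ hx]

theorem pz_zero (x : G) : pz p x 0 = 1 := by
  unfold pz
  rw [ZMod.val_zero, pow_zero]

theorem pz_one (x : G) : pz p x 1 = x := by
  unfold pz
  haveI : Fact (1 < p) := ⟨(Fact.out : p.Prime).one_lt⟩
  rw [ZMod.val_one, pow_one]

theorem pz_neg {x : G} (hx : x ^ p = 1) (a : ZMod p) : pz p x (-a) = (pz p x a)⁻¹ := by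
  have h := pz_add hx (-a) a
  rw [neg_add_cancel, pz_zero] at h
  exact eq_inv_of_mul_eq_one_left h.symm

omit [Fact p.Prime] in
theorem pz_conj (x g : G) (a : ZMod p) : g * pz p x a * g⁻¹ = pz p (g * x * g⁻¹) a := by
  unfold pz
  rw [conj_pow]

omit [Fact p.Prime] in
theorem pz_pow_p {x : G} (hx : x ^ p = 1) (a : ZMod p) : (pz p x a) ^ p = 1 := by
  unfold pz
  rw [← pow_mul, mul_comm, pow_mul, hx, one_pow]

theorem pz_inj {x : G} (hx : orderOf x = p) {a b : ZMod p} (h : pz p x a = pz p x b) : a = b := by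
  unfold pz at h
  have ha : a.val < orderOf x := by rw [hx]; exact ZMod.val_lt a
  have hb : b.val < orderOf x := by rw [hx]; exact ZMod.val_lt b
  exact ZMod.val_injective p (pow_injOn_Iio_orderOf ha hb h)

theorem pz_of_mem_zpowers {x y : G} (hx : orderOf x = p) (hy : y ∈ Subgroup.zpowers x) :
    ∃ k : ZMod p, pz p x k = y := by
  obtain ⟨m, rfl⟩ := Subgroup.mem_zpowers_iff.mp hy
  refine ⟨(m : ZMod p), ?_⟩
  unfold pz
  rw [← zpow_natCast, ZMod.val_intCast, ← hx, zpow_mod_orderOf]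

omit [Fact p.Prime] in
theorem pz_mem_zpowers (x : G) (k : ZMod p) : pz p x k ∈ Subgroup.zpowers x :=
  Subgroup.pow_mem _ (Subgroup.mem_zpowers x) _

theorem pz_unit_order {x : G} (hx : orderOf x = p) (k : (ZMod p)ˣ) :
    orderOf (pz p x (k : ZMod p)) = p := by
  unfold pz
  have hc : (orderOf x).Coprime (k : ZMod p).val := by
    rw [hx]
    exact (ZMod.val_coe_unit_coprime k).symm
  rw [hc.orderOf_pow, hx]

end Pz

section ScE

variable {G : Type*} [Group G] {p : ℕ} [Fact p.Prime]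

/-- The subgroup of exponents `k` with `x ^ k` conjugate to `x`. -/
def scE (x : G) (hx : x ^ p = 1) : Subgroup (ZMod p)ˣ where
  carrier := {k | ∃ g : G, g * x * g⁻¹ = pz p x (k : ZMod p)}
  one_mem' := ⟨1, by simp [pz_one]⟩
  mul_mem' := by
    rintro k k' ⟨g, hg⟩ ⟨g', hg'⟩
    refine ⟨g * g', ?_⟩
    have : g * g' * x * (g * g')⁻¹ = g * (g' * x * g'⁻¹) * g⁻¹ := by group
    rw [this, hg', pz_conj, hg, Units.val_mul, pz_mul hx]
  inv_mem' := by
    rintro k ⟨g, hg⟩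
    refine ⟨g⁻¹, ?_⟩
    have h1 : g * pz p x ((k⁻¹ : (ZMod p)ˣ) : ZMod p) * g⁻¹ = x := by
      rw [pz_conj, hg, ← pz_mul hx, ← Units.val_mul, mul_inv_cancel, Units.val_one, pz_one]
    have h2 : g⁻¹ * x * g⁻¹⁻¹ = g⁻¹ * (g * pz p x ((k⁻¹ : (ZMod p)ˣ) : ZMod p) * g⁻¹) * g := by
      rw [h1, inv_inv]
    rw [h2]
    group

theorem mem_scE {x : G} (hx : x ^ p = 1) (k : (ZMod p)ˣ) :
    k ∈ scE x hx ↔ ∃ g : G, g * x * g⁻¹ = pz p x (k : ZMod p) := Iff.rfl

theorem scE_isConj_iff {x : G} (hx : x ^ p = 1) (k k₀ : (ZMod p)ˣ) :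
    IsConj (pz p x (k : ZMod p)) (pz p x (k₀ : ZMod p)) ↔ k * k₀⁻¹ ∈ scE x hx := by
  constructor
  · intro h
    obtain ⟨c, hc⟩ := isConj_iff.mp h
    have h1 : k₀ * k⁻¹ ∈ scE x hx := by
      refine ⟨c, ?_⟩
      have h2 : x = pz p (pz p x (k : ZMod p)) ((k⁻¹ : (ZMod p)ˣ) : ZMod p) := by
        rw [← pz_mul hx, ← Units.val_mul, mul_inv_cancel, Units.val_one, pz_one]
      conv_lhs => rw [h2]
      rw [pz_conj, hc, ← pz_mul hx, ← Units.val_mul]
    have h3 := (scE x hx).inv_mem h1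
    rwa [mul_inv_rev, inv_inv] at h3
  · rintro ⟨g, hg⟩
    refine IsConj.symm (isConj_iff.mpr ⟨g, ?_⟩)
    rw [pz_conj, hg, ← pz_mul hx, ← Units.val_mul, inv_mul_cancel_right]

end ScE

section Sylow

variable {G : Type*} [Group G] [Finite G] {p : ℕ} [Fact p.Prime]

theorem sc_sylow {x : G} (hx : orderOf x = p)
    (hC : Subgroup.centralizer ({x} : Set G) = Subgroup.zpowers x) :
    ∃ Q : Sylow p G, (Q : Subgroup G) = Subgroup.zpowers x := by
  have hp : p.Prime := Fact.out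
  have hPG : IsPGroup p (Subgroup.zpowers x) := by
    apply IsPGroup.of_card (n := 1)
    rw [Nat.card_zpowers, hx, pow_one]
  obtain ⟨Q, hQ⟩ := hPG.exists_le_sylow
  refine ⟨Q, le_antisymm ?_ hQ⟩
  have hxQ : x ∈ (Q : Subgroup G) := hQ (Subgroup.mem_zpowers x)
  have hx1 : x ≠ 1 := by
    intro h
    rw [h, orderOf_one] at hx
    exact hp.one_lt.ne hx
  haveI : Nontrivial (Q : Subgroup G) := ⟨⟨⟨x, hxQ⟩, 1, fun h => hx1 (congrArg Subtype.val h)⟩⟩
  have hcen := Q.isPGroup'.center_nontrivial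
  obtain ⟨z, hz⟩ := exists_ne (1 : Subgroup.center (Q : Subgroup G))
  have hz1 : ((z : (Q : Subgroup G)) : G) ≠ 1 := by
    intro h
    apply hz
    ext
    exact h
  have hzc : ∀ q : G, q ∈ (Q : Subgroup G) → q * ((z : (Q : Subgroup G)) : G) =
      ((z : (Q : Subgroup G)) : G) * q := by
    intro q hq
    have := Subgroup.mem_center_iff.mp z.2 ⟨q, hq⟩
    exact congrArg Subtype.val this
  have hzx : ((z : (Q : Subgroup G)) : G) ∈ Subgroup.zpowers x := by
    rw [← hC, Subgroup.mem_centralizer_iff]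
    intro y hy
    rw [Set.mem_singleton_iff] at hy
    subst hy
    exact hzc y hxQ
  have hzz : Subgroup.zpowers ((z : (Q : Subgroup G)) : G) = Subgroup.zpowers x := by
    have hle : Subgroup.zpowers ((z : (Q : Subgroup G)) : G) ≤ Subgroup.zpowers x :=
      Subgroup.zpowers_le.mpr hzx
    apply Subgroup.eq_of_le_of_card_ge hle
    rw [Nat.card_zpowers, Nat.card_zpowers, hx]
    have hdvd : orderOf ((z : (Q : Subgroup G)) : G) ∣ p := by
      have := Subgroup.card_dvd_of_le hle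
      rwa [Nat.card_zpowers, Nat.card_zpowers, hx] at this
    rcases (Nat.dvd_prime hp).mp hdvd with h | h
    · exact absurd (orderOf_eq_one_iff.mp h) hz1
    · exact h.ge
  intro q hq
  rw [← hC, Subgroup.mem_centralizer_iff]
  intro y hy
  rw [Set.mem_singleton_iff] at hy
  subst hy
  have hyz : y ∈ Subgroup.zpowers ((z : (Q : Subgroup G)) : G) := by
    rw [hzz]; exact Subgroup.mem_zpowers y
  obtain ⟨m, rfl⟩ := Subgroup.mem_zpowers_iff.mp hyz
  have hcomm : Commute q ((z : (Q : Subgroup G)) : G) := hzc q hq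
  exact (hcomm.zpow_right m).eq.symm

theorem sc_conj {x : G} (hx : orderOf x = p)
    (hC : Subgroup.centralizer ({x} : Set G) = Subgroup.zpowers x) (g : G) (hg : orderOf g = p) :
    ∃ k : (ZMod p)ˣ, IsConj (pz p x (k : ZMod p)) g := by
  have hp : p.Prime := Fact.out
  obtain ⟨Q, hQ⟩ := sc_sylow hx hC
  have hPG : IsPGroup p (Subgroup.zpowers g) := by
    apply IsPGroup.of_card (n := 1)
    rw [Nat.card_zpowers, hg, pow_one]
  obtain ⟨Q', hQ'⟩ := hPG.exists_le_sylow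
  obtain ⟨c, hc⟩ := MulAction.exists_smul_eq G Q Q'
  have hgQ' : g ∈ (Q' : Subgroup G) := hQ' (Subgroup.mem_zpowers g)
  rw [← hc, Sylow.coe_subgroup_smul, Subgroup.mem_pointwise_smul_iff_inv_smul_mem, hQ] at hgQ'
  have hmem : c⁻¹ * g * c ∈ Subgroup.zpowers x := by
    simpa [MulAut.smul_def] using hgQ'
  obtain ⟨k, hk⟩ := pz_of_mem_zpowers hx hmem
  have hg1 : g ≠ 1 := by
    intro h
    rw [h, orderOf_one] at hg
    exact hp.one_lt.ne hg
  have hk0 : k ≠ 0 := by
    intro h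
    rw [h, pz_zero] at hk
    apply hg1
    have : g = c * (c⁻¹ * g * c) * c⁻¹ := by group
    rw [this, ← hk]
    group
  refine ⟨Units.mk0 k hk0, isConj_iff.mpr ⟨c, ?_⟩⟩
  rw [Units.val_mk0, hk]
  group

end Sylow

end Cfsg.Agent.Lib.Helper73
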