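import Mathlib
import Cfsg.Agent.Lib.Helper73.PGroupBasic
import Cfsg.Agent.Lib.Helper73.CyclicIndexTwo
import Cfsg.Agent.Lib.Helper1.Tools
import Cfsg.Agent.Lib.Helper20.PGroupOdd

/-!
# Tools for `p`-groups with a self-centralizing cyclic normal subgroup

* `mem_zpowers_pow_of_pow_prime_eq_one`: the elements of order dividing `p` of a cyclic group of
  order `p ^ n`.
* `zpowers_eq_of_mem_of_ne_one`: a non-identity element of a group of prime order generates it.
* `central_pow_of_normal_zpowers`: the subgroup of order `p` of a cyclic normal subgroup of a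
  `p`-group is central.
* `pow_prime_mul_comm_of_normal_card_sq`: `p`-th powers centralize a normal subgroup of order
  `p ^ 2` of a `p`-group.
* `dvd_sub_one_of_pow_prime`: if `k ^ p ≡ 1` modulo `p ^ n` for odd `p`, then `k ≡ 1` modulo
  `p ^ (n - 1)`.
-/

set_option autoImplicit false

namespace Cfsg.Agent.Lib.Helper73

open Cfsg.Agent.Lib.Helper1 Cfsg.Agent.Lib.Helper20

/-- In a cyclic group `⟨a⟩` of order `p ^ n`, the elements with `x ^ p = 1` are the powers of
`a ^ (p ^ (n - 1))`. -/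
theorem mem_zpowers_pow_of_pow_prime_eq_one {G : Type*} [Group G] {p : ℕ} (hp : p.Prime) {a : G}
    {n : ℕ} (hn : 1 ≤ n) (ha : orderOf a = p ^ n) {x : G} (hx : x ∈ Subgroup.zpowers a)
    (hxp : x ^ p = 1) : x ∈ Subgroup.zpowers (a ^ (p ^ (n - 1))) := by
  obtain ⟨k, rfl⟩ := Subgroup.mem_zpowers_iff.mp hx
  have h1 : a ^ (k * (p : ℤ)) = 1 := by rw [zpow_mul, zpow_natCast]; exact hxp
  have h2 : ((orderOf a : ℕ) : ℤ) ∣ k * (p : ℤ) := orderOf_dvd_iff_zpow_eq_one.mpr h1
  rw [ha] at h2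
  obtain ⟨j, rfl⟩ : ∃ j, n = j + 1 := ⟨n - 1, by omega⟩
  rw [Nat.add_sub_cancel]
  have h3 : ((p ^ j : ℕ) : ℤ) ∣ k := by
    have h4 : ((p ^ (j + 1) : ℕ) : ℤ) = ((p ^ j : ℕ) : ℤ) * (p : ℤ) := by push_cast; ring
    rw [h4] at h2
    exact Int.dvd_of_mul_dvd_mul_right (by exact_mod_cast hp.ne_zero) h2
  obtain ⟨m, rfl⟩ := h3
  rw [Subgroup.mem_zpowers_iff]
  exact ⟨m, by rw [← zpow_natCast, ← zpow_mul]⟩

/-- A non-identity element of a cyclic group of prime order generates it. -/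
theorem zpowers_eq_of_mem_of_ne_one {G : Type*} [Group G] [Finite G] {p : ℕ} [Fact p.Prime]
    {z w : G} (hz : orderOf z = p) (hw : w ∈ Subgroup.zpowers z) (hw1 : w ≠ 1) :
    Subgroup.zpowers w = Subgroup.zpowers z := by
  have hwp : w ^ p = 1 := by
    obtain ⟨k, rfl⟩ := Subgroup.mem_zpowers_iff.mp hw
    rw [← zpow_natCast, ← zpow_mul, mul_comm, zpow_mul, zpow_natCast, ← hz, pow_orderOf_eq_one,
      one_zpow]
  have hwo : orderOf w = p := orderOf_eq_prime hwp hw1
  apply Subgroup.eq_of_le_of_card_ge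
  · rw [Subgroup.zpowers_le]; exact hw
  · rw [Nat.card_zpowers, Nat.card_zpowers, hz, hwo]

/-- The subgroup of order `p` of a cyclic normal subgroup of a finite `p`-group is central. -/
theorem central_pow_of_normal_zpowers {G : Type*} [Group G] [Finite G] {p : ℕ} [Fact p.Prime]
    (hG : IsPGroup p G) {a : G} {n : ℕ} (hn : 1 ≤ n) (ha : orderOf a = p ^ n)
    [hU : (Subgroup.zpowers a).Normal] (g : G) :
    g * a ^ (p ^ (n - 1)) = a ^ (p ^ (n - 1)) * g := by
  have hp : p.Prime := Fact.out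
  obtain ⟨z, hz⟩ : ∃ z : G, z = a ^ (p ^ (n - 1)) := ⟨_, rfl⟩
  rw [← hz]
  have hzU : z ∈ Subgroup.zpowers a := by rw [hz]; exact Subgroup.npow_mem_zpowers a _
  have hzp : z ^ p = 1 := by
    rw [hz, ← pow_mul, ← pow_succ, show n - 1 + 1 = n by omega, ← ha, pow_orderOf_eq_one]
  have hz1 : z ≠ 1 := by
    rw [hz]
    apply pow_ne_one_of_lt_orderOf (pow_ne_zero _ hp.ne_zero)
    rw [ha]
    exact Nat.pow_lt_pow_right hp.one_lt (by omega)
  have hzo : orderOf z = p := orderOf_eq_prime hzp hz1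
  haveI hZn : (Subgroup.zpowers z).Normal := by
    constructor
    intro x hx g
    obtain ⟨k, rfl⟩ := Subgroup.mem_zpowers_iff.mp hx
    rw [← conj_zpow]
    apply Subgroup.zpow_mem
    have h1 : g * z * g⁻¹ ∈ Subgroup.zpowers (a ^ (p ^ (n - 1))) := by
      apply mem_zpowers_pow_of_pow_prime_eq_one hp hn ha
      · exact hU.conj_mem _ hzU g
      · rw [conj_pow, hzp]; group
    rw [hz]
    rw [hz] at h1
    exact h1
  have hne : Subgroup.zpowers z ≠ ⊥ := by
    intro h
    apply hz1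
    have : z ∈ Subgroup.zpowers z := Subgroup.mem_zpowers z
    rw [h, Subgroup.mem_bot] at this
    exact this
  obtain ⟨w, hwZ, hw1, hwc⟩ := exists_central_mem_of_normal hG (Subgroup.zpowers z) hne
  have h1 := zpowers_eq_of_mem_of_ne_one hzo hwZ hw1
  have h2 : z ∈ Subgroup.zpowers w := by rw [h1]; exact Subgroup.mem_zpowers z
  obtain ⟨i, hi⟩ := Subgroup.mem_zpowers_iff.mp h2
  rw [← hi]
  exact ((show Commute g w from hwc g).zpow_right i).eq

/-- In a finite `p`-group, `p`-th powers centralize every normal subgroup of order `p ^ 2`. -/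
theorem pow_prime_mul_comm_of_normal_card_sq {G : Type*} [Group G] [Finite G] {p : ℕ}
    [Fact p.Prime] (hG : IsPGroup p G) (W : Subgroup G) [hW : W.Normal]
    (hcard : Nat.card W = p ^ 2) (g w : G) (hw : w ∈ W) : g ^ p * w = w * g ^ p := by
  have hp : p.Prime := Fact.out
  have hWne : W ≠ ⊥ := by
    rintro rfl
    rw [Subgroup.card_bot] at hcard
    have := Nat.one_lt_pow (n := 2) (by norm_num) hp.one_lt
    omega
  obtain ⟨w₁, hw₁W, hw₁1, hw₁c⟩ := exists_central_mem_of_normal hG W hWne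
  obtain ⟨k, hk⟩ := IsPGroup.iff_orderOf.mp hG w₁
  have hk0 : k ≠ 0 := by
    rintro rfl
    rw [pow_zero, orderOf_eq_one_iff] at hk
    exact hw₁1 hk
  obtain ⟨w₀, hw₀⟩ : ∃ w₀ : G, w₀ = w₁ ^ (p ^ (k - 1)) := ⟨_, rfl⟩
  have hw₀o : orderOf w₀ = p := by
    rw [hw₀, orderOf_pow_of_dvd (pow_ne_zero _ hp.ne_zero)
      (by rw [hk]; exact pow_dvd_pow p (by omega)), hk, Nat.pow_div (by omega) hp.pos]
    have : k - (k - 1) = 1 := by omega
    rw [this, pow_one]
  have hw₀W : w₀ ∈ W := by rw [hw₀]; exact Subgroup.pow_mem _ hw₁W _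
  have hw₀c : ∀ s : G, s * w₀ = w₀ * s := by
    intro s
    rw [hw₀]
    exact ((show Commute s w₁ from hw₁c s).pow_right _).eq
  haveI hZn : (Subgroup.zpowers w₀).Normal := zpowers_normal_of_central hw₀c
  have hZW : Subgroup.zpowers w₀ ≤ W := by rw [Subgroup.zpowers_le]; exact hw₀W
  have hmapcard : Nat.card (W.map (QuotientGroup.mk' (Subgroup.zpowers w₀))) = p := by
    have h1 := card_map_mk'_mul (Subgroup.zpowers w₀) W
    rw [inf_of_le_left hZW, Nat.card_zpowers, hw₀o, hcard, pow_two] at h1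
    exact Nat.eq_of_mul_eq_mul_right hp.pos h1
  haveI hWq : (W.map (QuotientGroup.mk' (Subgroup.zpowers w₀))).Normal :=
    Subgroup.Normal.map hW _ (QuotientGroup.mk'_surjective _)
  have hne : W.map (QuotientGroup.mk' (Subgroup.zpowers w₀)) ≠ ⊥ := by
    intro h
    rw [h, Subgroup.card_bot] at hmapcard
    exact hp.one_lt.ne hmapcard
  obtain ⟨v, hvW, hv1, hvc⟩ := exists_central_mem_of_normal (hG.to_quotient _) _ hne
  have hall : ∀ x ∈ W.map (QuotientGroup.mk' (Subgroup.zpowers w₀)),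
      ∀ s : G ⧸ Subgroup.zpowers w₀, s * x = x * s := by
    intro x hx s
    have h1 : (⟨x, hx⟩ : ↥(W.map (QuotientGroup.mk' (Subgroup.zpowers w₀)))) ∈
        Subgroup.zpowers (⟨v, hvW⟩ : ↥(W.map (QuotientGroup.mk' (Subgroup.zpowers w₀)))) :=
      mem_zpowers_of_prime_card hmapcard (by intro h; exact hv1 (congrArg Subtype.val h))
    obtain ⟨i, hi⟩ := Subgroup.mem_zpowers_iff.mp h1
    have h2 : v ^ i = x := by
      have := congrArg Subtype.val hi
      rwa [Subgroup.coe_zpow] at this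
    rw [← h2]
    exact ((show Commute s v from hvc s).zpow_right i).eq
  have hcomm : g⁻¹ * w⁻¹ * g * w ∈ Subgroup.zpowers w₀ := by
    rw [← QuotientGroup.eq_one_iff]
    have h1 := hall _ (Subgroup.mem_map_of_mem (QuotientGroup.mk' (Subgroup.zpowers w₀)) hw)
      (QuotientGroup.mk' _ g)
    simp only [QuotientGroup.mk'_apply] at h1
    rw [QuotientGroup.mk_mul, QuotientGroup.mk_mul, QuotientGroup.mk_mul, QuotientGroup.mk_inv,
      QuotientGroup.mk_inv, mul_assoc, h1]
    group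
  obtain ⟨j, hj⟩ := Subgroup.mem_zpowers_iff.mp hcomm
  have hsc : ∀ s : G, Commute (w₀ ^ j) s := fun s =>
    ((show Commute s w₀ from hw₀c s).zpow_right j).symm
  have h2 : g * w = w * g * w₀ ^ j := by
    rw [hj]; group
  have h3 := pow_mul_comm_central (a := w) (b := g) (s := w₀ ^ j) h2 (hsc g) p
  have hw₀p : w₀ ^ p = 1 := by rw [← hw₀o]; exact pow_orderOf_eq_one w₀
  have h4 : (w₀ ^ j) ^ p = 1 := by
    rw [← zpow_natCast, ← zpow_mul, mul_comm, zpow_mul, zpow_natCast, hw₀p, one_zpow]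
  rw [h3, h4, mul_one]

/-- If `k ^ p ≡ 1` modulo `p ^ n` for an odd prime `p`, then `k ≡ 1` modulo `p ^ (n - 1)`. -/
theorem dvd_sub_one_of_pow_prime {p : ℕ} [Fact p.Prime] (hp2 : p ≠ 2) {n k : ℕ} (hn : 1 ≤ n)
    (hk : 1 ≤ k) (h : p ^ n ∣ k ^ p - 1) : p ^ (n - 1) ∣ k - 1 := by
  have hp : p.Prime := Fact.out
  rcases Nat.lt_or_ge 1 k with h1k | h1k
  · have hodd : Odd p := hp.odd_of_ne_two hp2
    have hpd : p ∣ k ^ p - 1 := (dvd_pow_self p (by omega)).trans h
    have hkp : 1 ≤ k ^ p := Nat.one_le_pow _ _ (by omega)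
    have hk1 : p ∣ k - 1 := by
      have e1 : ((k ^ p - 1 : ℕ) : ZMod p) = 0 := (ZMod.natCast_eq_zero_iff _ _).mpr hpd
      rw [Nat.cast_sub hkp, Nat.cast_pow, ZMod.pow_card, Nat.cast_one] at e1
      rw [← ZMod.natCast_eq_zero_iff, Nat.cast_sub hk, Nat.cast_one]
      exact e1
    have hnk : ¬ p ∣ k := by
      intro hd
      have h2 : p ∣ k ^ p := dvd_pow hd hp.ne_zero
      have h3 : p ∣ 1 := by
        have h4 : k ^ p = (k ^ p - 1) + 1 := by omega
        rw [h4] at h2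
        exact (Nat.dvd_add_right hpd).mp h2
      exact hp.one_lt.ne' (Nat.dvd_one.mp h3)
    have hlte := padicValNat.pow_sub_pow hodd h1k hk1 hnk (n := p) hp.ne_zero
    rw [one_pow, padicValNat_self] at hlte
    have hne : k ^ p - 1 ≠ 0 := by
      have : 1 < k ^ p := Nat.one_lt_pow hp.ne_zero h1k
      omega
    have h4 : n ≤ padicValNat p (k ^ p - 1) := (padicValNat_dvd_iff_le hne).mp h
    rw [hlte] at h4
    have hne' : k - 1 ≠ 0 := by omega
    exact (padicValNat_dvd_iff_le hne').mpr (by omega)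
  · have : k - 1 = 0 := by omega
    rw [this]; exact dvd_zero _

end Cfsg.Agent.Lib.Helper73
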