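import Mathlib
import Cfsg.Prelude.Def_PLocal
import Cfsg.Prelude.Def_Transfer
import Cfsg.Agent.Lib.Helper73.SelfCentA
import Cfsg.Agent.Lib.Helper73.ExpP
import Cfsg.Agent.S0519

/-!
# The modular case of a `p`-group with a self-centralizing cyclic normal subgroup

`selfcent_final`: if `⟨a⟩` is a self-centralizing normal subgroup of order `p ^ n` of the
`p`-group `G` and `b ∉ ⟨a⟩` satisfies `b ^ p = 1`, `b a b⁻¹ = a ζ` with `ζ` in the subgroup of
order `p` of `⟨a⟩`, and the elements of order dividing `p` of `⟨a, b⟩` lie in `⟨z, b⟩`, then the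
centralizer `M` of the `p`-th powers of `⟨a⟩` is `⟨a, b⟩`, and the subgroup generated by its
elements of order dividing `p` is elementary abelian of order `p ^ 2` and characteristic.
-/

set_option autoImplicit false

namespace Cfsg.Agent.Lib.Helper73

open Cfsg.Agent.Lib.Helper1 Cfsg.Agent.Lib.Helper20

/-- The subgroup generated by the `p`-th powers of a cyclic group. -/
theorem powerClosure_one_zpowers {G : Type*} [Group G] (p : ℕ) (a : G) :
    Cfsg.powerClosure p 1 (Subgroup.zpowers a) = Subgroup.zpowers (a ^ p) := by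
  unfold Cfsg.powerClosure
  apply le_antisymm
  · rw [Subgroup.closure_le]
    rintro y ⟨x, hx, rfl⟩
    obtain ⟨k, rfl⟩ := Subgroup.mem_zpowers_iff.mp hx
    rw [pow_one, SetLike.mem_coe, Subgroup.mem_zpowers_iff]
    exact ⟨k, by rw [← zpow_natCast, ← zpow_natCast, ← zpow_mul, ← zpow_mul, mul_comm]⟩
  · rw [Subgroup.zpowers_le]
    exact Subgroup.subset_closure ⟨a, Subgroup.mem_zpowers a, by rw [pow_one]⟩

/-- A subgroup not containing an element of prime order meets its cyclic group trivially. -/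
theorem card_inf_zpowers_eq_one {G : Type*} [Group G] [Finite G] {p : ℕ} (hp : p.Prime)
    (H : Subgroup G) {b : G} (hbo : orderOf b = p) (hb : b ∉ H) :
    Nat.card (H ⊓ Subgroup.zpowers b : Subgroup G) = 1 := by
  have hd : Nat.card (H ⊓ Subgroup.zpowers b : Subgroup G) ∣ p := by
    have := Subgroup.card_dvd_of_le (inf_le_right : H ⊓ Subgroup.zpowers b ≤ Subgroup.zpowers b)
    rwa [Nat.card_zpowers, hbo] at this
  rcases (Nat.dvd_prime hp).mp hd with h | h
  · exact h
  · exfalso
    have h1 : H ⊓ Subgroup.zpowers b = Subgroup.zpowers b :=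
      Subgroup.eq_of_le_of_card_ge inf_le_right (by rw [h, Nat.card_zpowers, hbo])
    apply hb
    have hb' : b ∈ H ⊓ Subgroup.zpowers b := by rw [h1]; exact Subgroup.mem_zpowers b
    exact hb'.1

/-- The modular case. -/
theorem selfcent_final {G : Type*} [Group G] [Finite G] {p : ℕ} [Fact p.Prime] (hG : IsPGroup p G)
    (a : G) (n : ℕ) (hn : 2 ≤ n) (ha : orderOf a = p ^ n) [hUn : (Subgroup.zpowers a).Normal]
    (hC : Subgroup.centralizer (Subgroup.zpowers a : Set G) = Subgroup.zpowers a)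
    (b ζ : G) (hb : b ∉ Subgroup.zpowers a) (hbp : b ^ p = 1)
    (hζ : ζ ∈ Subgroup.zpowers (a ^ (p ^ (n - 1)))) (hba : b * a * b⁻¹ = a * ζ)
    (H2 : ∀ x ∈ Subgroup.zpowers a ⊔ Subgroup.zpowers b, x ^ p = 1 →
      x ∈ Subgroup.zpowers (a ^ (p ^ (n - 1))) ⊔ Subgroup.zpowers b) :
    (Subgroup.zpowers a).relIndex
        (Subgroup.centralizer (Cfsg.powerClosure p 1 (Subgroup.zpowers a) : Set G)) = p ∧
      Cfsg.IsElementaryAbelian p (Cfsg.omegaOne p
        (Subgroup.centralizer (Cfsg.powerClosure p 1 (Subgroup.zpowers a) : Set G))) ∧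
      Nat.card ↥(Cfsg.omegaOne p
        (Subgroup.centralizer (Cfsg.powerClosure p 1 (Subgroup.zpowers a) : Set G))) = p ^ 2 ∧
      (Cfsg.omegaOne p (Subgroup.centralizer
        (Cfsg.powerClosure p 1 (Subgroup.zpowers a) : Set G))).Characteristic := by
  have hp : p.Prime := Fact.out
  have haU : a ∈ Subgroup.zpowers a := Subgroup.mem_zpowers a
  obtain ⟨z, hz⟩ : ∃ z : G, z = a ^ (p ^ (n - 1)) := ⟨_, rfl⟩
  rw [← hz] at hζ H2
  have hzc : ∀ g : G, g * z = z * g := by
    intro g; rw [hz]; exact central_pow_of_normal_zpowers hG (by omega) ha g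
  have hzU : z ∈ Subgroup.zpowers a := by rw [hz]; exact Subgroup.npow_mem_zpowers a _
  have hzp : z ^ p = 1 := by
    rw [hz, ← pow_mul, ← pow_succ, show n - 1 + 1 = n by omega, ← ha, pow_orderOf_eq_one]
  have hz1 : z ≠ 1 := by
    rw [hz]
    apply pow_ne_one_of_lt_orderOf (pow_ne_zero _ hp.ne_zero)
    rw [ha]
    exact Nat.pow_lt_pow_right hp.one_lt (by omega)
  have hzo : orderOf z = p := orderOf_eq_prime hzp hz1
  have hbo : orderOf b = p :=
    orderOf_eq_prime hbp (by rintro rfl; exact hb (Subgroup.one_mem _))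
  have hζc : ∀ g : G, Commute ζ g := by
    intro g
    obtain ⟨e, rfl⟩ := Subgroup.mem_zpowers_iff.mp hζ
    exact ((show Commute g z from hzc g).zpow_right e).symm
  have hζp : ζ ^ p = 1 := by
    obtain ⟨e, rfl⟩ := Subgroup.mem_zpowers_iff.mp hζ
    rw [← zpow_natCast, ← zpow_mul, mul_comm, zpow_mul, zpow_natCast, hzp, one_zpow]
  have hcent : ∀ s : G, s * a = a * s → s ∈ Subgroup.zpowers a := by
    intro s hs
    rw [← hC, Subgroup.mem_centralizer_iff]
    intro h hh
    obtain ⟨k, rfl⟩ := Subgroup.mem_zpowers_iff.mp hh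
    exact ((show Commute s a from hs).zpow_right k).eq.symm
  have hba' : b * a = a * ζ * b := by
    calc b * a = b * a * b⁻¹ * b := by group
      _ = a * ζ * b := by rw [hba]
  have hζ1 : ζ ≠ 1 := by
    rintro rfl
    apply hb
    apply hcent
    rw [hba', mul_one]
  have hζz : Subgroup.zpowers ζ = Subgroup.zpowers z := zpowers_eq_of_mem_of_ne_one hzo hζ hζ1
  rw [powerClosure_one_zpowers p a]
  have hM : ∀ t : G, t ∈ Subgroup.centralizer (Subgroup.zpowers (a ^ p) : Set G) ↔
      t * a ^ p = a ^ p * t := by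
    intro t
    rw [Subgroup.mem_centralizer_iff]
    constructor
    · intro h
      exact (h _ (Subgroup.mem_zpowers _)).symm
    · intro h x hx
      obtain ⟨k, rfl⟩ := Subgroup.mem_zpowers_iff.mp hx
      exact ((show Commute t (a ^ p) from h).zpow_right k).eq.symm
  have hbf : ∀ f : ℕ, b ^ f * a = a * ζ ^ f * b ^ f := by
    intro f
    induction f with
    | zero => simp
    | succ f ih =>
      calc b ^ (f + 1) * a = b * (b ^ f * a) := by rw [pow_succ']; group
        _ = b * (a * ζ ^ f * b ^ f) := by rw [ih]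
        _ = (b * a) * ζ ^ f * b ^ f := by group
        _ = a * ζ * b * ζ ^ f * b ^ f := by rw [hba']
        _ = a * ζ * (b * ζ ^ f) * b ^ f := by group
        _ = a * ζ * (ζ ^ f * b) * b ^ f := by rw [((hζc b).pow_left f).eq]
        _ = a * ζ ^ (f + 1) * b ^ (f + 1) := by rw [pow_succ' ζ, pow_succ' b]; group
  have hMeq : Subgroup.centralizer (Subgroup.zpowers (a ^ p) : Set G) =
      Subgroup.zpowers a ⊔ Subgroup.zpowers b := by
    apply le_antisymm
    · intro t ht
      rw [hM] at ht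
      obtain ⟨c, hc⟩ : ∃ c : G, c = a⁻¹ * (t * a * t⁻¹) := ⟨_, rfl⟩
      have htat : t * a * t⁻¹ ∈ Subgroup.zpowers a := hUn.conj_mem a haU t
      have hcU : c ∈ Subgroup.zpowers a := by
        rw [hc]; exact Subgroup.mul_mem _ (Subgroup.inv_mem _ haU) htat
      have hcp : c ^ p = 1 := by
        have hcomm : Commute a⁻¹ (t * a * t⁻¹) := by
          obtain ⟨k, hk⟩ := Subgroup.mem_zpowers_iff.mp htat
          rw [← hk]
          exact ((Commute.refl a).zpow_right k).inv_left
        rw [hc, hcomm.mul_pow, conj_pow, ht]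
        group
      have hcz : c ∈ Subgroup.zpowers z := by
        rw [hz]
        exact mem_zpowers_pow_of_pow_prime_eq_one hp (by omega) ha hcU hcp
      have hcζ : c ∈ Subgroup.zpowers ζ := by rw [hζz]; exact hcz
      obtain ⟨f, hf⟩ := (Submonoid.mem_powers_iff _ _).mp (mem_powers_iff_mem_zpowers.mpr hcζ)
      have h1 : t * a = a * ζ ^ f * t := by rw [hf, hc]; group
      have h2 := hbf f
      have h4 : a * (b ^ f)⁻¹ = (b ^ f)⁻¹ * (a * ζ ^ f) := by
        calc a * (b ^ f)⁻¹ = (b ^ f)⁻¹ * (b ^ f * a) * (b ^ f)⁻¹ := by group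
          _ = (b ^ f)⁻¹ * (a * ζ ^ f * b ^ f) * (b ^ f)⁻¹ := by rw [h2]
          _ = (b ^ f)⁻¹ * (a * ζ ^ f) := by group
      have h3 : ((b ^ f)⁻¹ * t) * a = a * ((b ^ f)⁻¹ * t) := by
        calc ((b ^ f)⁻¹ * t) * a = (b ^ f)⁻¹ * (t * a) := by group
          _ = (b ^ f)⁻¹ * (a * ζ ^ f * t) := by rw [h1]
          _ = ((b ^ f)⁻¹ * (a * ζ ^ f)) * t := by group
          _ = a * (b ^ f)⁻¹ * t := by rw [← h4]
          _ = a * ((b ^ f)⁻¹ * t) := by group
      have h5 : (b ^ f)⁻¹ * t ∈ Subgroup.zpowers a := hcent _ h3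
      have h6 : t = b ^ f * ((b ^ f)⁻¹ * t) := by group
      rw [h6]
      exact Subgroup.mul_mem _
        ((le_sup_right : Subgroup.zpowers b ≤ _) (Subgroup.npow_mem_zpowers b f))
        ((le_sup_left : Subgroup.zpowers a ≤ _) h5)
    · apply sup_le
      · rw [Subgroup.zpowers_le, hM]
        exact ((Commute.refl a).pow_right p).eq
      · rw [Subgroup.zpowers_le, hM]
        have h1 : b * a ^ p * b⁻¹ = a ^ p := by
          rw [← conj_pow, hba, (hζc a).symm.mul_pow, hζp, mul_one]
        calc b * a ^ p = b * a ^ p * b⁻¹ * b := by group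
          _ = a ^ p * b := by rw [h1]
  haveI hpn : (Subgroup.zpowers (a ^ p)).Normal := by
    constructor
    intro x hx g
    obtain ⟨k, rfl⟩ := Subgroup.mem_zpowers_iff.mp hx
    rw [← conj_zpow, ← conj_pow]
    obtain ⟨j, hj⟩ := Subgroup.mem_zpowers_iff.mp (hUn.conj_mem a haU g)
    rw [← hj]
    have h1 : (a ^ j) ^ p = (a ^ p) ^ j := by
      rw [← zpow_natCast, ← zpow_mul, mul_comm, zpow_mul, zpow_natCast]
    rw [h1]
    exact Subgroup.zpow_mem _ (Subgroup.zpow_mem _ (Subgroup.mem_zpowers _) j) k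
  have hMn : (Subgroup.zpowers a ⊔ Subgroup.zpowers b).Normal :=
    hMeq ▸ (inferInstance : (Subgroup.centralizer (Subgroup.zpowers (a ^ p) : Set G)).Normal)
  rw [hMeq]
  have hzW : z ∈ Subgroup.zpowers z ⊔ Subgroup.zpowers b :=
    (le_sup_left : Subgroup.zpowers z ≤ _) (Subgroup.mem_zpowers z)
  have hbW : b ∈ Subgroup.zpowers z ⊔ Subgroup.zpowers b :=
    (le_sup_right : Subgroup.zpowers b ≤ _) (Subgroup.mem_zpowers b)
  have hΩ : Cfsg.omegaOne p (Subgroup.zpowers a ⊔ Subgroup.zpowers b) =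
      Subgroup.zpowers z ⊔ Subgroup.zpowers b := by
    unfold Cfsg.omegaOne
    apply le_antisymm
    · rw [Subgroup.closure_le]
      rintro x ⟨hx, hxp⟩
      exact H2 x hx hxp
    · apply sup_le
      · rw [Subgroup.zpowers_le]
        exact Subgroup.subset_closure
          ⟨(le_sup_left : Subgroup.zpowers a ≤ _) hzU, hzp⟩
      · rw [Subgroup.zpowers_le]
        exact Subgroup.subset_closure
          ⟨(le_sup_right : Subgroup.zpowers b ≤ _) (Subgroup.mem_zpowers b), hbp⟩
  rw [hΩ]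
  haveI hZn : (Subgroup.zpowers z).Normal := zpowers_normal_of_central hzc
  have hbz : b ∉ Subgroup.zpowers z := by
    intro h
    apply hb
    have h1 : Subgroup.zpowers z ≤ Subgroup.zpowers a := by rw [Subgroup.zpowers_le]; exact hzU
    exact h1 h
  have hWcard : Nat.card ↥(Subgroup.zpowers z ⊔ Subgroup.zpowers b) = p ^ 2 := by
    have h1 := card_sup_mul_card_inf (Subgroup.zpowers z) (Subgroup.zpowers b)
    rw [card_inf_zpowers_eq_one hp _ hbo hbz, mul_one, Nat.card_zpowers, Nat.card_zpowers, hzo,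
      hbo] at h1
    rw [h1, pow_two]
  have hWexp : ∀ x ∈ Subgroup.zpowers z ⊔ Subgroup.zpowers b, x ^ p = 1 := by
    intro x hx
    obtain ⟨u, hu, h, hh, rfl⟩ := Subgroup.mem_sup_of_normal_left.mp hx
    obtain ⟨i, rfl⟩ := Subgroup.mem_zpowers_iff.mp hu
    obtain ⟨j, rfl⟩ := Subgroup.mem_zpowers_iff.mp hh
    have hcomm : Commute (z ^ i) (b ^ j) :=
      ((show Commute z b from (hzc b).symm).zpow_right j).zpow_left i
    rw [hcomm.mul_pow, ← zpow_natCast, ← zpow_mul, mul_comm, zpow_mul, zpow_natCast, hzp,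
      one_zpow, one_mul, ← zpow_natCast, ← zpow_mul, mul_comm, zpow_mul, zpow_natCast, hbp,
      one_zpow]
  haveI hWn : (Subgroup.zpowers z ⊔ Subgroup.zpowers b).Normal := by
    apply Cfsg.Agent.S0519.normal_sup_zpowers
    · intro g
      rw [hzc g, mul_inv_cancel_right]
      exact hzW
    · intro g
      apply H2
      · exact hMn.conj_mem b ((le_sup_right : Subgroup.zpowers b ≤ _) (Subgroup.mem_zpowers b)) g
      · rw [conj_pow, hbp]; group
  refine ⟨?_, ⟨Cfsg.Agent.S0519.isMulCommutative_sup_zpowers z b (hzc b).symm, hWexp⟩, hWcard, ?_⟩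
  · have hcardM := card_sup_mul_card_inf (Subgroup.zpowers a) (Subgroup.zpowers b)
    rw [card_inf_zpowers_eq_one hp _ hbo hb, mul_one, Nat.card_zpowers, Nat.card_zpowers, ha,
      hbo] at hcardM
    have h1 := card_eq_card_mul_relIndex
      (le_sup_left : Subgroup.zpowers a ≤ Subgroup.zpowers a ⊔ Subgroup.zpowers b)
    rw [hcardM, Nat.card_zpowers, ha] at h1
    exact (Nat.eq_of_mul_eq_mul_left (pow_pos hp.pos n) h1).symm
  · rw [Subgroup.characteristic_iff_map_le]
    intro φ
    rintro _ ⟨w, hw, rfl⟩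
    rw [← hΩ]
    unfold Cfsg.omegaOne
    apply Subgroup.subset_closure
    refine ⟨?_, ?_⟩
    · rw [← hMeq, hM]
      have h1 := pow_prime_mul_comm_of_normal_card_sq hG
        (Subgroup.zpowers z ⊔ Subgroup.zpowers b) hWcard (φ.symm a) w hw
      have h2 := congrArg φ h1
      rw [map_mul, map_mul, map_pow, MulEquiv.apply_symm_apply] at h2
      exact h2.symm
    · change (φ w) ^ p = 1
      rw [← map_pow, hWexp w hw, map_one]

end Cfsg.Agent.Lib.Helper73
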