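import Mathlib
import Cfsg.Prelude.Def_Characters
import Cfsg.Agent.Lib.Helper73.SelfCent
import Cfsg.Agent.Lib.Helper81.CharCore

/-!
# Counting classes of elements of prime order `p` and column sums over `⟨x⟩ ∖ 1`
-/

set_option autoImplicit false

namespace Cfsg.Agent.Lib.Helper73

open Finset

section Count

variable {G : Type*} [Group G] [Finite G] {p : ℕ} [Fact p.Prime]

omit [Finite G] [Fact p.Prime] in
theorem sc_pow_p {x : G} (hx : orderOf x = p) : x ^ p = 1 := by
  rw [← hx]; exact pow_orderOf_eq_one x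

/-- The class of `x ^ k`. -/
def scPhi {x : G} (hx : orderOf x = p) (k : (ZMod p)ˣ) :
    {C : ConjClasses G // ∃ g ∈ C.carrier, orderOf g = p} :=
  ⟨ConjClasses.mk (pz p x (k : ZMod p)), pz p x (k : ZMod p), ConjClasses.mem_carrier_mk,
    pz_unit_order hx k⟩

omit [Finite G] in
theorem scPhi_eq_iff {x : G} (hx : orderOf x = p) (k k₀ : (ZMod p)ˣ) :
    scPhi hx k = scPhi hx k₀ ↔ k * k₀⁻¹ ∈ scE x (sc_pow_p hx) := by
  rw [← scE_isConj_iff]
  unfold scPhi
  rw [Subtype.mk_eq_mk, ConjClasses.mk_eq_mk_iff_isConj]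

theorem scPhi_surj {x : G} (hx : orderOf x = p)
    (hC : Subgroup.centralizer ({x} : Set G) = Subgroup.zpowers x) :
    Function.Surjective (scPhi hx) := by
  rintro ⟨C, g, hg, hgo⟩
  obtain ⟨k, hk⟩ := sc_conj hx hC g hgo
  refine ⟨k, ?_⟩
  unfold scPhi
  rw [Subtype.mk_eq_mk, ConjClasses.mk_eq_mk_iff_isConj.mpr hk]
  exact ConjClasses.mem_carrier_iff_mk_eq.mp hg

open scoped Classical in
theorem card_coset_sub {U : Type*} [Group U] [Fintype U] (E : Subgroup U) (k₀ : U) :
    (univ.filter (fun k : U => k * k₀⁻¹ ∈ E)).card = Nat.card E := by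
  classical
  rw [Nat.card_eq_fintype_card, ← Fintype.card_subtype]
  refine Fintype.card_congr
    { toFun := fun k => ⟨k.1 * k₀⁻¹, k.2⟩
      invFun := fun j => ⟨j.1 * k₀, by simp⟩
      left_inv := fun k => by simp
      right_inv := fun j => by simp }

theorem sc_fiber_card {x : G} (hx : orderOf x = p)
    (hC : Subgroup.centralizer ({x} : Set G) = Subgroup.zpowers x)
    (C : {C : ConjClasses G // ∃ g ∈ C.carrier, orderOf g = p}) :
    Nat.card {k : (ZMod p)ˣ // scPhi hx k = C} = Nat.card (scE x (sc_pow_p hx)) := by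
  classical
  obtain ⟨k₀, rfl⟩ := scPhi_surj hx hC C
  rw [← card_coset_sub (scE x (sc_pow_p hx)) k₀, Nat.card_eq_fintype_card, Fintype.card_subtype]
  congr 1
  ext k
  simp only [mem_filter, mem_univ, true_and]
  exact scPhi_eq_iff hx k k₀

theorem sc_sum_fiber {x : G} (hx : orderOf x = p)
    (hC : Subgroup.centralizer ({x} : Set G) = Subgroup.zpowers x)
    [Fintype {C : ConjClasses G // ∃ g ∈ C.carrier, orderOf g = p}]
    (F : {C : ConjClasses G // ∃ g ∈ C.carrier, orderOf g = p} → ℂ) :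
    ∑ k : (ZMod p)ˣ, F (scPhi hx k) =
      (Nat.card (scE x (sc_pow_p hx)) : ℂ) * ∑ C, F C := by
  classical
  rw [← Finset.sum_fiberwise (univ : Finset (ZMod p)ˣ) (scPhi hx) (fun k => F (scPhi hx k)),
    Finset.mul_sum]
  refine Finset.sum_congr rfl (fun C _ => ?_)
  have h1 : ∀ k ∈ univ.filter (fun k : (ZMod p)ˣ => scPhi hx k = C), F (scPhi hx k) = F C := by
    intro k hk
    rw [(Finset.mem_filter.mp hk).2]
  rw [Finset.sum_congr rfl h1, Finset.sum_const, nsmul_eq_mul]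
  congr 1
  rw [← sc_fiber_card hx hC C, Nat.card_eq_fintype_card, Fintype.card_subtype]

theorem sc_count {x : G} (hx : orderOf x = p)
    (hC : Subgroup.centralizer ({x} : Set G) = Subgroup.zpowers x) :
    Nat.card (scE x (sc_pow_p hx)) *
      Nat.card {C : ConjClasses G // ∃ g ∈ C.carrier, orderOf g = p} = p - 1 := by
  classical
  letI : Fintype {C : ConjClasses G // ∃ g ∈ C.carrier, orderOf g = p} := Fintype.ofFinite _
  have h := sc_sum_fiber hx hC (fun _ => (1 : ℂ))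
  simp only [Finset.sum_const, Finset.card_univ, nsmul_eq_mul, mul_one] at h
  rw [ZMod.card_units p] at h
  rw [Nat.card_eq_fintype_card (α := {C : ConjClasses G // ∃ g ∈ C.carrier, orderOf g = p})]
  exact_mod_cast h.symm

open scoped Classical in
theorem card_conj_set (a b : G) :
    Nat.card {y : G // y * b * y⁻¹ = a} =
      if IsConj b a then Nat.card (Subgroup.centralizer ({b} : Set G)) else 0 := by
  classical
  split_ifs with h
  · obtain ⟨c, hc⟩ := isConj_iff.mp h
    refine Nat.card_congr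
      { toFun := fun y => ⟨c⁻¹ * y.1, ?_⟩
        invFun := fun z => ⟨c * z.1, ?_⟩
        left_inv := fun y => by simp
        right_inv := fun z => by simp }
    · rw [Subgroup.mem_centralizer_iff]
      intro w hw
      rw [Set.mem_singleton_iff] at hw
      subst hw
      have hy : y.1 * w * y.1⁻¹ = c * w * c⁻¹ := y.2.trans hc.symm
      have h1 : c⁻¹ * (y.1 * w * y.1⁻¹) * y.1 = c⁻¹ * (c * w * c⁻¹) * y.1 := by rw [hy]
      have h2 : c⁻¹ * (y.1 * w * y.1⁻¹) * y.1 = c⁻¹ * y.1 * w := by group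
      have h3 : c⁻¹ * (c * w * c⁻¹) * y.1 = w * (c⁻¹ * y.1) := by group
      rw [← h3, ← h1, h2]
    · have hz := Subgroup.mem_centralizer_iff.mp z.2 b (Set.mem_singleton b)
      rw [← hc]
      have h1 : c * z.1 * b * (c * z.1)⁻¹ = c * (z.1 * b) * z.1⁻¹ * c⁻¹ := by group
      rw [h1, ← hz]
      group
  · haveI : IsEmpty {y : G // y * b * y⁻¹ = a} := by
      refine ⟨fun y => h (isConj_iff.mpr ⟨y.1, y.2⟩)⟩
    exact Nat.card_of_isEmpty

omit [Finite G] in
theorem sc_centralizer_pz {x : G} (hx : orderOf x = p) (k : (ZMod p)ˣ) :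
    Subgroup.centralizer ({pz p x (k : ZMod p)} : Set G) = Subgroup.centralizer ({x} : Set G) := by
  have hxp := sc_pow_p hx
  ext g
  simp only [Subgroup.mem_centralizer_iff, Set.mem_singleton_iff, forall_eq]
  constructor
  · intro h
    have h2 : x = pz p (pz p x (k : ZMod p)) ((k⁻¹ : (ZMod p)ˣ) : ZMod p) := by
      rw [← pz_mul hxp, ← Units.val_mul, mul_inv_cancel, Units.val_one, pz_one]
    rw [h2]
    unfold pz at h ⊢
    have hc : Commute (x ^ (k : ZMod p).val) g := h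
    exact (hc.pow_left _).eq
  · intro h
    unfold pz
    have hc : Commute x g := h
    exact (hc.pow_left _).eq

theorem sc_col_sum [Fintype G] [Fintype (Cfsg.IrrCharacter G)] {x : G} (hx : orderOf x = p)
    (hC : Subgroup.centralizer ({x} : Set G) = Subgroup.zpowers x) :
    ∑ ψ : Cfsg.IrrCharacter G, (∑ k : (ZMod p)ˣ, ψ.1 (pz p x (k : ZMod p))) *
        starRingEnd ℂ (∑ k : (ZMod p)ˣ, ψ.1 (pz p x (k : ZMod p))) =
      (p : ℂ) * ((p - 1 : ℕ) : ℂ) * (Nat.card (scE x (sc_pow_p hx)) : ℂ) := by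
  classical
  have h1 : ∀ ψ : Cfsg.IrrCharacter G, (∑ k : (ZMod p)ˣ, ψ.1 (pz p x (k : ZMod p))) *
        starRingEnd ℂ (∑ k : (ZMod p)ˣ, ψ.1 (pz p x (k : ZMod p))) =
      ∑ k : (ZMod p)ˣ, ∑ k' : (ZMod p)ˣ,
        ψ.1 (pz p x (k : ZMod p)) * starRingEnd ℂ (ψ.1 (pz p x (k' : ZMod p))) := by
    intro ψ
    rw [map_sum, Finset.sum_mul_sum]
  simp only [h1]
  rw [Finset.sum_comm]
  have h2 : ∀ k : (ZMod p)ˣ, ∑ ψ : Cfsg.IrrCharacter G, ∑ k' : (ZMod p)ˣ,
        ψ.1 (pz p x (k : ZMod p)) * starRingEnd ℂ (ψ.1 (pz p x (k' : ZMod p))) =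
      (p : ℂ) * (Nat.card (scE x (sc_pow_p hx)) : ℂ) := by
    intro k
    rw [Finset.sum_comm]
    have h3 : ∀ k' : (ZMod p)ˣ, ∑ ψ : Cfsg.IrrCharacter G,
        ψ.1 (pz p x (k : ZMod p)) * starRingEnd ℂ (ψ.1 (pz p x (k' : ZMod p))) =
        if k' * k⁻¹ ∈ scE x (sc_pow_p hx) then (p : ℂ) else 0 := by
      intro k'
      rw [Cfsg.Agent.Lib.Helper81.irr_col_orth, card_conj_set, sc_centralizer_pz hx k', hC,
        Nat.card_zpowers, hx]
      by_cases hk : k' * k⁻¹ ∈ scE x (sc_pow_p hx)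
      · rw [if_pos ((scE_isConj_iff (sc_pow_p hx) k' k).mpr hk), if_pos hk]
      · rw [if_neg (fun h => hk ((scE_isConj_iff (sc_pow_p hx) k' k).mp h)), if_neg hk]
        simp
    simp only [h3]
    rw [Finset.sum_ite, Finset.sum_const, Finset.sum_const_zero, add_zero, nsmul_eq_mul,
      card_coset_sub, mul_comm]
  simp only [h2]
  rw [Finset.sum_const, Finset.card_univ, ZMod.card_units p, nsmul_eq_mul]
  ring

end Count

end Cfsg.Agent.Lib.Helper73
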