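import Mathlib
import Cfsg.Prelude.Def_Blocks
import Cfsg.Agent.Lib.Helper73.SelfCentCount
import Cfsg.Agent.Lib.Helper73.DetCyc
import Cfsg.Agent.Lib.Helper81.CharCore
import Cfsg.Agent.Lib.Helper77.Degree
import Cfsg.Agent.Lib.Helper3.Burnside
import Cfsg.Agent.Lib.Helper78.CharBasic

/-!
# A character of degree `p - 1` of a group with a self-centralizing element of order `p`
-/

set_option autoImplicit false

namespace Cfsg.Agent.Lib.Helper73

open Finset

section Char

variable {G : Type*} [Group G] [Finite G] {p : ℕ} [Fact p.Prime]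

omit [Finite G] in
theorem sum_units_zmod (F : ZMod p → ℂ) :
    ∑ k : (ZMod p)ˣ, F (k : ZMod p) = ∑ k : ZMod p, F k - F 0 := by
  classical
  have h1 : ∑ k : (ZMod p)ˣ, F (k : ZMod p) = ∑ a : {a : ZMod p // a ≠ 0}, F a :=
    Fintype.sum_equiv unitsEquivNeZero _ _ (fun k => rfl)
  rw [h1, ← Finset.sum_erase_eq_sub (Finset.mem_univ (0 : ZMod p))]
  rw [← Finset.sum_subtype (univ.erase (0 : ZMod p)) (fun a => by simp) F]

/-- The sum of `ρ` over `⟨x⟩`. -/
noncomputable def scT {n : ℕ} (ρ : Representation ℂ G (Fin n → ℂ)) (x : G) :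
    Module.End ℂ (Fin n → ℂ) := ∑ k : ZMod p, ρ (pz p x k)

omit [Finite G] in
theorem scT_shift {n : ℕ} (ρ : Representation ℂ G (Fin n → ℂ)) {x : G} (hxp : x ^ p = 1)
    (j : ZMod p) : ρ (pz p x j) * scT (p := p) ρ x = scT (p := p) ρ x := by
  unfold scT
  rw [Finset.mul_sum]
  have h1 : ∀ k : ZMod p, ρ (pz p x j) * ρ (pz p x k) = ρ (pz p x (j + k)) := by
    intro k
    rw [pz_add hxp, map_mul]
  simp only [h1]
  exact Fintype.sum_equiv (Equiv.addLeft j) _ _ (fun k => rfl)

omit [Finite G] in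
theorem scT_sq {n : ℕ} (ρ : Representation ℂ G (Fin n → ℂ)) {x : G} (hxp : x ^ p = 1) :
    scT (p := p) ρ x * scT (p := p) ρ x = (p : ℂ) • scT (p := p) ρ x := by
  have h : scT (p := p) ρ x * scT (p := p) ρ x =
      ∑ j : ZMod p, ρ (pz p x j) * scT (p := p) ρ x := by
    conv_lhs => rw [scT]
    rw [Finset.sum_mul]
    rfl
  rw [h]
  simp only [scT_shift ρ hxp]
  rw [Finset.sum_const, Finset.card_univ, ZMod.card, ← Nat.cast_smul_eq_nsmul ℂ]

theorem sc_char_T {x : G} (hx : orderOf x = p)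
    (hC : Subgroup.centralizer ({x} : Set G) = Subgroup.zpowers x)
    {n : ℕ} (ρ : Representation ℂ G (Fin n → ℂ)) (hirr : Cfsg.IsIrrCharacter G ρ.character)
    (hn : n + 1 = p) (he : 2 ≤ Nat.card (scE x (sc_pow_p hx))) :
    scT (p := p) ρ x = 0 := by
  classical
  have hp : p.Prime := Fact.out
  have hxp := sc_pow_p hx
  have hpC : (p : ℂ) ≠ 0 := by exact_mod_cast hp.ne_zero
  set e := Nat.card (scE x (sc_pow_p hx)) with hedef
  set T := scT (p := p) ρ x with hTdef
  set Pi : Module.End ℂ (Fin n → ℂ) := (p : ℂ)⁻¹ • T with hPidef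
  have hidem : IsIdempotentElem Pi := by
    show Pi * Pi = Pi
    rw [hPidef, smul_mul_smul_comm, scT_sq ρ hxp, smul_smul]
    congr 1
    field_simp
  have hproj : LinearMap.IsProj (LinearMap.range Pi) Pi :=
    LinearMap.IsIdempotentElem.isProj_range Pi hidem
  set a := Module.finrank ℂ (LinearMap.range Pi) with hadef
  have htrPi : LinearMap.trace ℂ (Fin n → ℂ) Pi = (a : ℂ) := hproj.trace
  have htrT : LinearMap.trace ℂ (Fin n → ℂ) T = (p : ℂ) * a := by
    have : T = (p : ℂ) • Pi := by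
      rw [hPidef, smul_smul, mul_inv_cancel₀ hpC, one_smul]
    rw [this, map_smul, htrPi, smul_eq_mul]
  -- the character
  set χ : Cfsg.IrrCharacter G := ⟨ρ.character, hirr⟩ with hχdef
  have hχ1 : χ.1 1 = (n : ℂ) := Cfsg.Agent.Lib.Helper78.char_one_fin ρ
  have hsumall : ∑ k : ZMod p, χ.1 (pz p x k) = (p : ℂ) * a := by
    rw [← htrT, hTdef, scT, map_sum]
    rfl
  have hsχ : ∑ k : (ZMod p)ˣ, χ.1 (pz p x (k : ZMod p)) = (p : ℂ) * a - n := by
    rw [sum_units_zmod (fun k => χ.1 (pz p x k)), hsumall, pz_zero, hχ1]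
  -- counting
  letI : Fintype {C : ConjClasses G // ∃ g ∈ C.carrier, orderOf g = p} := Fintype.ofFinite _
  have hcount := sc_count hx hC
  rw [← hedef] at hcount
  have hen : e ∣ n := by
    have : n = p - 1 := by omega
    rw [this, ← hcount]
    exact dvd_mul_right _ _
  have he0 : e ≠ 0 := by omega
  have hn2 : 2 ≤ n := le_trans he (Nat.le_of_dvd (by
    rcases Nat.eq_zero_or_pos n with h | h
    · exfalso
      have : p = 1 := by omega
      exact hp.one_lt.ne' this
    · exact h) hen)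
  -- integrality
  have hdvd : (e : ℤ) ∣ ((p : ℤ) * a - n) := by
    let rep : {C : ConjClasses G // ∃ g ∈ C.carrier, orderOf g = p} → G :=
      fun C => Classical.choose (ConjClasses.exists_rep C.1)
    have hrep : ∀ C, ConjClasses.mk (rep C) = C.1 :=
      fun C => Classical.choose_spec (ConjClasses.exists_rep C.1)
    have hF : ∀ k : (ZMod p)ˣ, χ.1 (rep (scPhi hx k)) = χ.1 (pz p x (k : ZMod p)) := by
      intro k
      have h1 : ConjClasses.mk (rep (scPhi hx k)) = ConjClasses.mk (pz p x (k : ZMod p)) :=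
        hrep (scPhi hx k)
      obtain ⟨c, hc⟩ := isConj_iff.mp (ConjClasses.mk_eq_mk_iff_isConj.mp h1)
      rw [← hc, Cfsg.Agent.Lib.Helper81.irr_conj_class]
    have hsf := sc_sum_fiber hx hC (fun C => χ.1 (rep C))
    simp only [hF] at hsf
    rw [hsχ, ← hedef] at hsf
    refine Cfsg.Agent.Lib.Helper3.int_dvd_of_isIntegral ((p : ℤ) * a - n) e he0
      (∑ C, χ.1 (rep C)) ?_ ?_
    · refine IsIntegral.sum _ (fun C _ => ?_)
      letI : Fintype G := Fintype.ofFinite G
      exact Cfsg.Agent.Lib.Helper77.isIntegral_irr_apply χ (rep C)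
    · rw [← hsf]
      push_cast
      ring
  have hea : e ∣ a := by
    have h1 : (e : ℤ) ∣ (p : ℤ) * a := by
      have h2 : (e : ℤ) ∣ (n : ℤ) := Int.natCast_dvd_natCast.mpr hen
      have := dvd_add hdvd h2
      simpa using this
    have h3 : e ∣ p * a := by exact_mod_cast h1
    have hcop : Nat.Coprime e p := by
      rw [Nat.coprime_comm, Nat.Prime.coprime_iff_not_dvd hp]
      intro hpe
      have h4 : p ∣ n := dvd_trans hpe hen
      have := Nat.le_of_dvd (by omega) h4
      omega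
    exact hcop.dvd_of_dvd_mul_left h3
  -- column orthogonality
  letI : Fintype G := Fintype.ofFinite G
  haveI : Finite (Cfsg.IrrCharacter G) := Cfsg.Agent.Lib.Helper81.irr_finite G
  letI : Fintype (Cfsg.IrrCharacter G) := Fintype.ofFinite _
  have hcol := sc_col_sum hx hC
  rw [← hedef] at hcol
  set s : Cfsg.IrrCharacter G → ℂ := fun ψ => ∑ k : (ZMod p)ˣ, ψ.1 (pz p x (k : ZMod p)) with hsdef
  have hcol2 : ∑ ψ : Cfsg.IrrCharacter G, Complex.normSq (s ψ) =
      (p : ℝ) * ((p - 1 : ℕ) : ℝ) * (e : ℝ) := by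
    have h1 : ∀ ψ : Cfsg.IrrCharacter G, s ψ * starRingEnd ℂ (s ψ) =
        ((Complex.normSq (s ψ) : ℝ) : ℂ) := fun ψ => Complex.mul_conj (s ψ)
    have h2 : ((∑ ψ : Cfsg.IrrCharacter G, Complex.normSq (s ψ) : ℝ) : ℂ) =
        (((p : ℝ) * ((p - 1 : ℕ) : ℝ) * (e : ℝ) : ℝ) : ℂ) := by
      push_cast
      rw [← hcol]
      exact Finset.sum_congr rfl (fun ψ _ => (h1 ψ).symm)
    exact_mod_cast h2
  set triv : Cfsg.IrrCharacter G := ⟨fun _ => 1, Cfsg.Agent.Lib.Helper81.isIrrCharacter_one⟩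
    with htrivdef
  have hne : triv ≠ χ := by
    intro h
    have h1 : triv.1 1 = χ.1 1 := by rw [h]
    rw [hχ1] at h1
    have h2 : (1 : ℂ) = (n : ℂ) := h1
    have h3 : n = 1 := by exact_mod_cast h2.symm
    omega
  have hstriv : s triv = ((p - 1 : ℕ) : ℂ) := by
    simp only [hsdef, htrivdef]
    rw [Finset.sum_const, Finset.card_univ, ZMod.card_units p, nsmul_eq_mul, mul_one]
  have hsχ' : s χ = (((p : ℤ) * a - n : ℤ) : ℂ) := by
    simp only [hsdef]
    rw [hsχ]
    push_cast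
    ring
  have hineq : Complex.normSq (s triv) + Complex.normSq (s χ) ≤
      (p : ℝ) * ((p - 1 : ℕ) : ℝ) * (e : ℝ) := by
    have hpair : ∑ ψ ∈ ({triv, χ} : Finset (Cfsg.IrrCharacter G)), Complex.normSq (s ψ) =
        Complex.normSq (s triv) + Complex.normSq (s χ) := Finset.sum_pair hne
    rw [← hcol2, ← hpair]
    exact Finset.sum_le_sum_of_subset_of_nonneg (Finset.subset_univ _)
      (fun ψ _ _ => Complex.normSq_nonneg _)
  rw [hstriv, hsχ', Complex.normSq_natCast, Complex.normSq_intCast] at hineq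
  have hineqZ : ((p - 1 : ℕ) : ℤ) * ((p - 1 : ℕ) : ℤ) + ((p : ℤ) * a - n) * ((p : ℤ) * a - n) ≤
      (p : ℤ) * ((p - 1 : ℕ) : ℤ) * (e : ℤ) := by
    exact_mod_cast hineq
  have ha0 : a = 0 := by
    by_contra hne0
    have hae : e ≤ a := Nat.le_of_dvd (Nat.pos_of_ne_zero hne0) hea
    have hp1 : ((p - 1 : ℕ) : ℤ) = (p : ℤ) - 1 := by
      have := hp.one_lt
      omega
    have hnZ : (n : ℤ) = (p : ℤ) - 1 := by omega
    rw [hp1, hnZ] at hineqZ
    have hP : (3 : ℤ) ≤ p := by omega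
    have hE : (2 : ℤ) ≤ e := by exact_mod_cast he
    have hA : (e : ℤ) ≤ a := by exact_mod_cast hae
    have hu : (p : ℤ) + 1 ≤ (p : ℤ) * e - ((p : ℤ) - 1) := by nlinarith
    have hv : (p : ℤ) * e - ((p : ℤ) - 1) ≤ (p : ℤ) * a - ((p : ℤ) - 1) := by nlinarith
    nlinarith [mul_self_nonneg ((p : ℤ) * a - ((p : ℤ) - 1)),
      mul_le_mul hv hv (by linarith) (by linarith)]
  have hrange : LinearMap.range Pi = ⊥ := by
    rw [← Submodule.finrank_eq_zero, ← hadef, ha0]
  have hPi0 : Pi = 0 := LinearMap.range_eq_bot.mp hrange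
  have : T = (p : ℂ) • Pi := by
    rw [hPidef, smul_smul, mul_inv_cancel₀ hpC, one_smul]
  rw [this, hPi0, smul_zero]

omit [Finite G] in
theorem sc_char_zero {x : G} (hx : orderOf x = p)
    {n : ℕ} (ρ : Representation ℂ G (Fin n → ℂ)) (hT : scT (p := p) ρ x = 0)
    (y : G) (r : ZMod p) (hr : r ≠ 1) (hy : y * x * y⁻¹ = pz p x r) :
    ρ.character y = 0 := by
  have hp : p.Prime := Fact.out
  have hxp := sc_pow_p hx
  have hpC : (p : ℂ) ≠ 0 := by exact_mod_cast hp.ne_zero
  have h1r : (1 : ZMod p) - r ≠ 0 := sub_ne_zero.mpr (Ne.symm hr)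
  have hconj : ∀ m : ZMod p, pz p x m * y * (pz p x m)⁻¹ = pz p x (m - r * m) * y := by
    intro m
    have h1 : y * (pz p x m)⁻¹ * y⁻¹ = pz p x (-(r * m)) := by
      have : y * (pz p x m)⁻¹ * y⁻¹ = (y * pz p x m * y⁻¹)⁻¹ := by group
      rw [this, pz_conj, hy, ← pz_mul hxp, pz_neg hxp]
    have h2 : pz p x m * y * (pz p x m)⁻¹ = pz p x m * (y * (pz p x m)⁻¹ * y⁻¹) * y := by group
    rw [h2, h1, ← pz_add hxp, sub_eq_add_neg]
  have hval : ∀ k : ZMod p, ρ.character (pz p x k * y) = ρ.character y := by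
    intro k
    have hm : k = k * (1 - r)⁻¹ - r * (k * (1 - r)⁻¹) := by
      field_simp
    rw [hm, ← hconj]
    have := Representation.char_mul_comm ρ (y * (pz p x (k * (1 - r)⁻¹))⁻¹) (pz p x (k * (1 - r)⁻¹))
    have h3 : pz p x (k * (1 - r)⁻¹) * (y * (pz p x (k * (1 - r)⁻¹))⁻¹) =
        pz p x (k * (1 - r)⁻¹) * y * (pz p x (k * (1 - r)⁻¹))⁻¹ := by group
    have h4 : y * (pz p x (k * (1 - r)⁻¹))⁻¹ * pz p x (k * (1 - r)⁻¹) = y := by group
    rw [h3, h4] at this
    exact this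
  have hsum : ∑ k : ZMod p, ρ.character (pz p x k * y) = 0 := by
    have : ∑ k : ZMod p, ρ.character (pz p x k * y) =
        LinearMap.trace ℂ (Fin n → ℂ) (scT (p := p) ρ x * ρ y) := by
      rw [scT, Finset.sum_mul, map_sum]
      refine Finset.sum_congr rfl (fun k _ => ?_)
      rw [Representation.character, map_mul]
    rw [this, hT, zero_mul, map_zero]
  simp only [hval] at hsum
  rw [Finset.sum_const, Finset.card_univ, ZMod.card, nsmul_eq_mul] at hsum
  exact (mul_eq_zero.mp hsum).resolve_left hpC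

theorem sc_det {x : G} (hx : orderOf x = p)
    (hC : Subgroup.centralizer ({x} : Set G) = Subgroup.zpowers x)
    {n : ℕ} (ρ : Representation ℂ G (Fin n → ℂ)) (hirr : Cfsg.IsIrrCharacter G ρ.character)
    (hn : n + 1 = p) (he : Even (Nat.card (scE x (sc_pow_p hx)))) (t : ℕ) (ht : Odd t)
    (het : Nat.card (scE x (sc_pow_p hx)) * t = p - 1) :
    ∃ g : G, LinearMap.det (ρ g) = -1 := by
  classical
  have hp : p.Prime := Fact.out
  have hxp := sc_pow_p hx
  set e := Nat.card (scE x (sc_pow_p hx)) with hedef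
  have he0 : e ≠ 0 := Nat.card_pos.ne'
  have he2 : 2 ≤ e := by
    obtain ⟨m, hm⟩ := he
    omega
  have hT := sc_char_T hx hC ρ hirr hn he2
  have hen : e ∣ n := by
    have : n = p - 1 := by omega
    rw [this, ← het]
    exact dvd_mul_right _ _
  have hcop : Nat.Coprime e p := by
    rw [Nat.coprime_comm, Nat.Prime.coprime_iff_not_dvd hp]
    intro hpe
    have h4 : p ∣ n := dvd_trans hpe hen
    have hn0 : 0 < n := by
      rcases Nat.eq_zero_or_pos n with h | h
      · exfalso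
        have : p = 1 := by omega
        exact hp.one_lt.ne' this
      · exact h
    have := Nat.le_of_dvd hn0 h4
    omega
  -- a generator of the cyclic group of exponents
  obtain ⟨j', hj'⟩ := IsCyclic.exists_generator (α := scE x (sc_pow_p hx))
  have hordj' : orderOf j' = e := orderOf_eq_card_of_forall_mem_zpowers hj'
  set j : (ZMod p)ˣ := (j' : (ZMod p)ˣ) with hjdef
  have hordj : orderOf j = e := by rw [hjdef, Subgroup.orderOf_coe, hordj']
  obtain ⟨g, hg⟩ := (mem_scE hxp j).mp j'.2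
  have hpow : ∀ i : ℕ, g ^ i * x * (g ^ i)⁻¹ = pz p x ((j ^ i : (ZMod p)ˣ) : ZMod p) := by
    intro i
    induction i with
    | zero => simp [pz_one]
    | succ i ih =>
      have h1 : g ^ (i + 1) * x * (g ^ (i + 1))⁻¹ = g * (g ^ i * x * (g ^ i)⁻¹) * g⁻¹ := by
        rw [pow_succ']; group
      rw [h1, ih, pz_conj, hg, ← pz_mul hxp, ← Units.val_mul, ← pow_succ']
  -- the element
  set w := g ^ p with hwdef
  have hwe : w ^ e = 1 := by
    have h1 : g ^ e ∈ Subgroup.zpowers x := by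
      rw [← hC, Subgroup.mem_centralizer_iff]
      intro h hh
      rw [Set.mem_singleton_iff] at hh
      subst hh
      have h2 := hpow e
      rw [← hordj, pow_orderOf_eq_one, Units.val_one, pz_one] at h2
      have h3 : g ^ orderOf j * h = g ^ orderOf j * h * (g ^ orderOf j)⁻¹ * g ^ orderOf j := by group
      rw [hordj] at h3 h2
      rw [h3, h2]
    obtain ⟨k, hk⟩ := pz_of_mem_zpowers hx h1
    rw [hwdef, ← pow_mul, mul_comm, pow_mul, ← hk, pz_pow_p hxp]
  have hwi : ∀ i, 0 < i → i < e → ρ.character (w ^ i) = 0 := by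
    intro i hi0 hie
    refine sc_char_zero hx ρ hT (w ^ i) ((j ^ (p * i) : (ZMod p)ˣ) : ZMod p) ?_ ?_
    · intro h
      have h1 : j ^ (p * i) = 1 := Units.ext (by rw [h, Units.val_one])
      have h2 : e ∣ p * i := by rw [← hordj]; exact orderOf_dvd_of_pow_eq_one h1
      have h3 : e ∣ i := hcop.dvd_of_dvd_mul_left h2
      have := Nat.le_of_dvd hi0 h3
      omega
    · rw [hwdef, ← pow_mul]
      exact hpow (p * i)
  have hA : (ρ w) ^ e = 1 := by
    rw [← map_pow, hwe, map_one]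
  have htr : ∀ i, 0 < i → i < e → LinearMap.trace ℂ (Fin n → ℂ) ((ρ w) ^ i) = 0 := by
    intro i hi0 hie
    rw [← map_pow]
    exact hwi i hi0 hie
  have hdim : Module.finrank ℂ (Fin n → ℂ) = e * t := by
    rw [Module.finrank_fin_fun, het]
    omega
  exact ⟨w, dc_det (ρ w) e t he he0 hA htr ht hdim⟩

end Char

end Cfsg.Agent.Lib.Helper73
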