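import Mathlib
import Cfsg.Agent.Lib.Helper73.SelfCentA

/-!
# `p`-groups, `p` odd, with a self-centralizing cyclic normal subgroup

`selfcent_odd`: a non-abelian `p`-group, `p` odd, with a self-centralizing cyclic normal subgroup
`⟨a⟩` of order `p ^ n` contains `b ∉ ⟨a⟩` with `b ^ p = 1`, `b a b⁻¹ = a ζ` where `ζ` lies in the
subgroup of order `p` of `⟨a⟩`, and the elements of order dividing `p` of `⟨a, b⟩` lie in
`⟨z, b⟩`.
-/

set_option autoImplicit false

namespace Cfsg.Agent.Lib.Helper73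

open Cfsg.Agent.Lib.Helper1 Cfsg.Agent.Lib.Helper20

theorem selfcent_odd {G : Type*} [Group G] [Finite G] {p : ℕ} [Fact p.Prime] (hp2 : p ≠ 2)
    (hG : IsPGroup p G) (hna : ¬ IsMulCommutative G) (a : G) (n : ℕ) (hn : 2 ≤ n)
    (ha : orderOf a = p ^ n) [hUn : (Subgroup.zpowers a).Normal]
    (hC : Subgroup.centralizer (Subgroup.zpowers a : Set G) = Subgroup.zpowers a) :
    ∃ b ζ : G, b ∉ Subgroup.zpowers a ∧ b ^ p = 1 ∧
      ζ ∈ Subgroup.zpowers (a ^ (p ^ (n - 1))) ∧ b * a * b⁻¹ = a * ζ ∧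
      ∀ x ∈ Subgroup.zpowers a ⊔ Subgroup.zpowers b, x ^ p = 1 →
        x ∈ Subgroup.zpowers (a ^ (p ^ (n - 1))) ⊔ Subgroup.zpowers b := by
  classical
  have hp : p.Prime := Fact.out
  have haU : a ∈ Subgroup.zpowers a := Subgroup.mem_zpowers a
  have hcent : ∀ s : G, s * a = a * s → s ∈ Subgroup.zpowers a := by
    intro s hs
    rw [← hC, Subgroup.mem_centralizer_iff]
    intro h hh
    obtain ⟨k, rfl⟩ := Subgroup.mem_zpowers_iff.mp hh
    exact ((show Commute s a from hs).zpow_right k).eq.symm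
  have hUtop : Subgroup.zpowers a ≠ ⊤ := by
    intro h
    apply hna
    refine ⟨⟨fun x y => ?_⟩⟩
    have hx : x ∈ Subgroup.zpowers a := by rw [h]; trivial
    have hy : y ∈ Subgroup.zpowers a := by rw [h]; trivial
    obtain ⟨i, rfl⟩ := Subgroup.mem_zpowers_iff.mp hx
    obtain ⟨j, rfl⟩ := Subgroup.mem_zpowers_iff.mp hy
    exact ((Commute.refl a).zpow_zpow i j).eq
  obtain ⟨z, hz⟩ : ∃ z : G, z = a ^ (p ^ (n - 1)) := ⟨_, rfl⟩
  rw [← hz]
  have hzc : ∀ g : G, g * z = z * g := by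
    intro g; rw [hz]; exact central_pow_of_normal_zpowers hG (by omega) ha g
  have hzU : z ∈ Subgroup.zpowers a := by rw [hz]; exact Subgroup.npow_mem_zpowers a _
  have hzp : z ^ p = 1 := by
    rw [hz, ← pow_mul, ← pow_succ, show n - 1 + 1 = n by omega, ← ha, pow_orderOf_eq_one]
  have hzcen : ∀ s ∈ Subgroup.zpowers z, ∀ g : G, Commute s g := by
    intro s hs g
    obtain ⟨e, rfl⟩ := Subgroup.mem_zpowers_iff.mp hs
    exact ((show Commute g z from hzc g).zpow_right e).symm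
  have hzexp : ∀ s ∈ Subgroup.zpowers z, s ^ p = 1 := by
    intro s hs
    obtain ⟨e, rfl⟩ := Subgroup.mem_zpowers_iff.mp hs
    rw [← zpow_natCast, ← zpow_mul, mul_comm, zpow_mul, zpow_natCast, hzp, one_zpow]
  -- an element outside `⟨a⟩` whose `p`-th power is inside
  obtain ⟨t₀, ht₀⟩ : ∃ t₀ : G, t₀ ∉ Subgroup.zpowers a := by
    by_contra h
    push Not at h
    exact hUtop ((Subgroup.eq_top_iff' _).mpr h)
  obtain ⟨k₀, hk₀⟩ := IsPGroup.iff_orderOf.mp hG t₀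
  have hex : ∃ j, t₀ ^ (p ^ j) ∈ Subgroup.zpowers a :=
    ⟨k₀, by rw [← hk₀, pow_orderOf_eq_one]; exact Subgroup.one_mem _⟩
  have hj0 : Nat.find hex ≠ 0 := by
    intro h
    have h1 := Nat.find_spec hex
    rw [h, pow_zero, pow_one] at h1
    exact ht₀ h1
  obtain ⟨t, ht⟩ : ∃ t : G, t = t₀ ^ (p ^ (Nat.find hex - 1)) := ⟨_, rfl⟩
  have htU : t ∉ Subgroup.zpowers a := by
    rw [ht]; exact Nat.find_min hex (by omega)
  have htp : t ^ p ∈ Subgroup.zpowers a := by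
    have h1 := Nat.find_spec hex
    rw [ht, ← pow_mul, ← pow_succ, show Nat.find hex - 1 + 1 = Nat.find hex by omega]
    exact h1
  -- the action of `t` on `a`
  obtain ⟨k, hk⟩ := (Submonoid.mem_powers_iff _ _).mp
    (mem_powers_iff_mem_zpowers.mpr (hUn.conj_mem a haU t))
  have hiter : ∀ i : ℕ, t ^ i * a * (t ^ i)⁻¹ = a ^ (k ^ i) := by
    intro i
    induction i with
    | zero => simp
    | succ i ih =>
      calc t ^ (i + 1) * a * (t ^ (i + 1))⁻¹ = t * (t ^ i * a * (t ^ i)⁻¹) * t⁻¹ := by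
            rw [pow_succ']; group
        _ = t * a ^ (k ^ i) * t⁻¹ := by rw [ih]
        _ = (t * a * t⁻¹) ^ (k ^ i) := by rw [conj_pow]
        _ = a ^ (k ^ (i + 1)) := by rw [← hk, ← pow_mul, pow_succ']
  have h1 : a ^ (k ^ p) = a ^ 1 := by
    rw [← hiter p, pow_one]
    obtain ⟨j, hj⟩ := Subgroup.mem_zpowers_iff.mp htp
    rw [← hj]
    have : Commute (a ^ j) a := (Commute.refl a).zpow_left j
    rw [this.eq]; group
  rw [pow_eq_pow_iff_modEq, ha] at h1
  have hk1 : 1 ≤ k := by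
    rcases Nat.eq_zero_or_pos k with h | h
    · exfalso
      rw [h, pow_zero] at hk
      have hk' : t * a * t⁻¹ = 1 := hk.symm
      rw [conj_eq_one_iff] at hk'
      rw [hk', orderOf_one] at ha
      have := Nat.one_lt_pow (n := n) (by omega) hp.one_lt
      omega
    · exact h
  have hdvd : p ^ n ∣ k ^ p - 1 := (Nat.modEq_iff_dvd' (Nat.one_le_pow _ _ hk1)).mp h1.symm
  obtain ⟨m, hm⟩ := dvd_sub_one_of_pow_prime hp2 (show 1 ≤ n by omega) hk1 hdvd
  obtain ⟨ζ, hζdef⟩ : ∃ ζ : G, ζ = z ^ m := ⟨_, rfl⟩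
  have hζz : ζ ∈ Subgroup.zpowers z := by rw [hζdef]; exact Subgroup.npow_mem_zpowers z m
  have hta : t * a * t⁻¹ = a * ζ := by
    rw [← hk, hζdef, hz, ← pow_mul, ← hm, ← pow_succ']
    congr 1
    omega
  have hζc : ∀ g : G, Commute ζ g := hzcen ζ hζz
  have hζp : ζ ^ p = 1 := hzexp ζ hζz
  have hta' : t * a = a * ζ * t := by
    calc t * a = t * a * t⁻¹ * t := by group
      _ = a * ζ * t := by rw [hta]
  have hζ1 : ζ ≠ 1 := by
    rintro rfl
    apply htU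
    apply hcent
    rw [hta', mul_one]
  -- `t ^ p = a ^ (p * i)`
  obtain ⟨j, hj⟩ := (Submonoid.mem_powers_iff _ _).mp (mem_powers_iff_mem_zpowers.mpr htp)
  have hζj : ζ ^ j = 1 := by
    have h2 : t * a ^ j * t⁻¹ = a ^ j := by rw [hj]; group
    rw [← conj_pow, hta, (hζc a).symm.mul_pow] at h2
    exact mul_left_cancel (a := a ^ j) (by rw [h2, mul_one])
  have hpj : p ∣ j := by
    have := orderOf_dvd_of_pow_eq_one hζj
    rwa [orderOf_eq_prime hζp hζ1] at this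
  obtain ⟨i, hi⟩ := hpj
  obtain ⟨b, hbdef⟩ : ∃ b : G, b = t * (a⁻¹) ^ i := ⟨_, rfl⟩
  have hbp : b ^ p = 1 := by
    have hcomm : (a⁻¹) ^ i * t = t * (a⁻¹) ^ i * ζ ^ i := by
      have h3 : t * a ^ i * t⁻¹ = a ^ i * ζ ^ i := by
        rw [← conj_pow, hta, (hζc a).symm.mul_pow]
      have h4 : t * a ^ i = a ^ i * ζ ^ i * t := by
        calc t * a ^ i = t * a ^ i * t⁻¹ * t := by group
          _ = a ^ i * ζ ^ i * t := by rw [h3]
      calc (a⁻¹) ^ i * t = (a⁻¹) ^ i * (t * a ^ i) * (a⁻¹) ^ i := by rw [inv_pow]; group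
        _ = (a⁻¹) ^ i * (a ^ i * ζ ^ i * t) * (a⁻¹) ^ i := by rw [h4]
        _ = ζ ^ i * (t * (a⁻¹) ^ i) := by rw [inv_pow]; group
        _ = t * (a⁻¹) ^ i * ζ ^ i := ((hζc _).pow_left i).eq
    have h5 := mul_pow_prime_of_central_comm hp hp2 hcomm ((hζc t).pow_left i)
      ((hζc _).pow_left i) (by rw [← pow_mul, mul_comm, pow_mul, hζp, one_pow])
    rw [hbdef, h5, ← hj, hi, ← pow_mul, inv_pow, mul_comm i p, mul_inv_cancel]
  have hbU : b ∉ Subgroup.zpowers a := by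
    intro h
    apply htU
    have h2 : t = b * a ^ i := by rw [hbdef, inv_pow]; group
    rw [h2]
    exact Subgroup.mul_mem _ h (Subgroup.pow_mem _ haU i)
  have hba : b * a * b⁻¹ = a * ζ := by
    rw [← hta, hbdef, inv_pow]
    have hc : Commute (a ^ i)⁻¹ a := ((Commute.refl a).pow_left i).inv_left
    calc t * (a ^ i)⁻¹ * a * (t * (a ^ i)⁻¹)⁻¹ = t * ((a ^ i)⁻¹ * a) * (a ^ i) * t⁻¹ := by group
      _ = t * (a * (a ^ i)⁻¹) * (a ^ i) * t⁻¹ := by rw [hc.eq]
      _ = t * a * t⁻¹ := by group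
  refine ⟨b, ζ, hbU, hbp, hζz, hba, ?_⟩
  intro x hx hxp
  obtain ⟨u, hu, h, hh, rfl⟩ := Subgroup.mem_sup_of_normal_left.mp hx
  obtain ⟨e, rfl⟩ := (Submonoid.mem_powers_iff _ _).mp (mem_powers_iff_mem_zpowers.mpr hh)
  have hbu : ∀ v ∈ Subgroup.zpowers a, ∃ s ∈ Subgroup.zpowers z, b * v * b⁻¹ = v * s := by
    intro v hv
    obtain ⟨i', rfl⟩ := Subgroup.mem_zpowers_iff.mp hv
    refine ⟨ζ ^ i', Subgroup.zpow_mem _ hζz i', ?_⟩
    rw [← conj_zpow, hba, (hζc a).symm.mul_zpow]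
  have hcomm : ∀ e : ℕ, ∃ s ∈ Subgroup.zpowers z, b ^ e * u = u * b ^ e * s := by
    intro e
    induction e with
    | zero => exact ⟨1, Subgroup.one_mem _, by simp⟩
    | succ e ih =>
      obtain ⟨s, hs, hse⟩ := ih
      obtain ⟨s', hs', hs'e⟩ := hbu u hu
      refine ⟨s' * s, Subgroup.mul_mem _ hs' hs, ?_⟩
      calc b ^ (e + 1) * u = b * (b ^ e * u) := by rw [pow_succ']; group
        _ = b * (u * b ^ e * s) := by rw [hse]
        _ = (b * u * b⁻¹) * (b * b ^ e) * s := by group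
        _ = u * s' * (b * b ^ e) * s := by rw [hs'e]
        _ = u * (s' * (b * b ^ e)) * s := by group
        _ = u * ((b * b ^ e) * s') * s := by rw [(hzcen s' hs' _).eq]
        _ = u * b ^ (e + 1) * (s' * s) := by rw [pow_succ']; group
  obtain ⟨s, hs, hse⟩ := hcomm e
  have h5 := mul_pow_prime_of_central_comm hp hp2 hse (hzcen s hs u) (hzcen s hs _) (hzexp s hs)
  rw [h5, ← pow_mul, mul_comm, pow_mul, hbp, one_pow, mul_one] at hxp
  have huz : u ∈ Subgroup.zpowers z := by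
    rw [hz]
    exact mem_zpowers_pow_of_pow_prime_eq_one hp (by omega) ha hu hxp
  exact Subgroup.mul_mem _ ((le_sup_left : Subgroup.zpowers z ≤ _) huz)
    ((le_sup_right : Subgroup.zpowers b ≤ _) (Subgroup.npow_mem_zpowers b e))

end Cfsg.Agent.Lib.Helper73
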