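import Mathlib
import Cfsg.Prelude.Def_CaseTheorems
import Cfsg.Agent.Lib.Helper73.SelfCentB
import Cfsg.Agent.Lib.Helper73.CyclicNormal
import Cfsg.Agent.Lib.Helper73.MaxClassCenter
import Cfsg.Agent.Lib.Helper73.ModularTwo
import Cfsg.Agent.Lib.Helper73.DihedralIso

/-!
# `2`-groups with a self-centralizing cyclic normal subgroup

`selfcent_two`: a non-abelian `2`-group with a self-centralizing cyclic normal subgroup `⟨a⟩` of
order `2 ^ n` is dihedral, generalized quaternion or quasi-dihedral of order `2 ^ (n + 1)`, or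
contains an involution `b ∉ ⟨a⟩` with `b a b⁻¹ = a ^ (1 + 2 ^ (n - 1))`, `n ≥ 3`.
-/

set_option autoImplicit false

namespace Cfsg.Agent.Lib.Helper73

open Cfsg.Agent.Lib.Helper1 Cfsg.Agent.Lib.Helper20

/-- The involutions of a group of modular type. -/
theorem selfcent_two_H2 {G : Type*} [Group G] [Finite G] (a b : G) (l : ℕ) (hl : 1 ≤ l)
    (ha : orderOf a = 2 ^ (l + 2)) [hUn : (Subgroup.zpowers a).Normal]
    (hb2 : b ^ 2 = 1) (hba : b * a * b⁻¹ = a ^ (1 + 2 ^ (l + 1))) :
    ∀ x ∈ Subgroup.zpowers a ⊔ Subgroup.zpowers b, x ^ 2 = 1 →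
      x ∈ Subgroup.zpowers (a ^ (2 ^ (l + 2 - 1))) ⊔ Subgroup.zpowers b := by
  intro x hx hx2
  obtain ⟨u, hu, h, hh, rfl⟩ := Subgroup.mem_sup_of_normal_left.mp hx
  have hbx : ∀ y ∈ Subgroup.zpowers a, b * y * b⁻¹ = y ^ (1 + 2 ^ (l + 1)) := by
    intro y hy
    obtain ⟨k, rfl⟩ := Subgroup.mem_zpowers_iff.mp hy
    rw [← conj_zpow, hba, ← zpow_natCast, ← zpow_natCast, ← zpow_mul, ← zpow_mul, mul_comm]
  obtain ⟨j, rfl⟩ := Subgroup.mem_zpowers_iff.mp hh
  rcases zpow_eq_one_or_self_of_sq hb2 j with h1 | h1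
  · rw [h1, mul_one] at hx2 ⊢
    exact (le_sup_left : Subgroup.zpowers (a ^ (2 ^ (l + 2 - 1))) ≤ _)
      (mem_zpowers_pow_of_pow_prime_eq_one Nat.prime_two (by omega) ha hu hx2)
  · rw [h1] at hx2 ⊢
    have h2 : u ^ (2 + 2 ^ (l + 1)) = 1 := by
      have h3 : (u * b) ^ 2 = u * (b * u * b⁻¹) * b ^ 2 := by rw [pow_two, pow_two]; group
      rw [h3, hbx u hu, hb2, mul_one, ← pow_succ'] at hx2
      rw [show 2 + 2 ^ (l + 1) = 1 + 2 ^ (l + 1) + 1 by ring]
      exact hx2
    have h4 : u ^ 2 = 1 := by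
      have hd1 : orderOf u ∣ 2 + 2 ^ (l + 1) := orderOf_dvd_of_pow_eq_one h2
      have hd2 : orderOf u ∣ 2 ^ (l + 2) := by
        rw [← ha]; exact orderOf_dvd_of_mem_zpowers hu
      have hg : Nat.gcd (2 + 2 ^ (l + 1)) (2 ^ (l + 2)) = 2 := by
        have e1 : 2 + 2 ^ (l + 1) = 2 * (1 + 2 ^ l) := by ring
        have e2 : 2 ^ (l + 2) = 2 * 2 ^ (l + 1) := by ring
        rw [e1, e2, Nat.gcd_mul_left]
        have hcop : Nat.Coprime (1 + 2 ^ l) (2 ^ (l + 1)) := by
          apply Nat.Coprime.pow_right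
          rw [Nat.coprime_two_right]
          obtain ⟨j, rfl⟩ : ∃ j, l = j + 1 := ⟨l - 1, by omega⟩
          exact ⟨2 ^ j, by ring⟩
        rw [hcop.gcd_eq_one]
      have hd : orderOf u ∣ 2 := by
        rw [← hg]; exact Nat.dvd_gcd hd1 hd2
      exact orderOf_dvd_iff_pow_eq_one.mp hd
    exact Subgroup.mul_mem _
      ((le_sup_left : Subgroup.zpowers (a ^ (2 ^ (l + 2 - 1))) ≤ _)
        (mem_zpowers_pow_of_pow_prime_eq_one Nat.prime_two (by omega) ha hu h4))
      ((le_sup_right : Subgroup.zpowers b ≤ _) (Subgroup.mem_zpowers b))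

/-- A non-abelian `2`-group with a self-centralizing cyclic normal subgroup: maximal class or
modular data. -/
theorem selfcent_two {G : Type*} [Group G] [Finite G] (hG : IsPGroup 2 G)
    (hna : ¬ IsMulCommutative G) (a : G) (n : ℕ) (hn : 2 ≤ n) (ha : orderOf a = 2 ^ n)
    [hUn : (Subgroup.zpowers a).Normal]
    (hC : Subgroup.centralizer (Subgroup.zpowers a : Set G) = Subgroup.zpowers a) :
    (Nat.card G = 2 ^ (n + 1) ∧ ((∃ m : ℕ, Nonempty (G ≃* DihedralGroup m)) ∨
      (∃ m : ℕ, Nonempty (G ≃* QuaternionGroup m)) ∨ Cfsg.IsQuasiDihedral G)) ∨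
    (∃ (l : ℕ) (b : G), 1 ≤ l ∧ n = l + 2 ∧ b ∉ Subgroup.zpowers a ∧ b ^ 2 = 1 ∧
      b * a * b⁻¹ = a ^ (1 + 2 ^ (l + 1))) := by
  haveI : Fact (Nat.Prime 2) := ⟨Nat.prime_two⟩
  obtain ⟨l, rfl⟩ : ∃ l, n = l + 2 := ⟨n - 2, by omega⟩
  have haU : a ∈ Subgroup.zpowers a := Subgroup.mem_zpowers a
  have hcent : ∀ s : G, s * a = a * s → s ∈ Subgroup.zpowers a := by
    intro s hs
    rw [← hC, Subgroup.mem_centralizer_iff]
    intro h hh
    obtain ⟨k, rfl⟩ := Subgroup.mem_zpowers_iff.mp hh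
    exact ((show Commute s a from hs).zpow_right k).eq.symm
  have hcomm : commutator G ≠ ⊥ := by
    intro h
    apply hna
    have h1 := (commutator_eq_bot_iff_center_eq_top G).mp h
    refine ⟨⟨fun x y => ?_⟩⟩
    have hy : y ∈ Subgroup.center G := by rw [h1]; trivial
    exact Subgroup.mem_center_iff.mp hy x
  have hUtop : Subgroup.zpowers a ≠ ⊤ := by
    intro h
    apply hna
    refine ⟨⟨fun x y => ?_⟩⟩
    have hx : x ∈ Subgroup.zpowers a := by rw [h]; trivial
    have hy : y ∈ Subgroup.zpowers a := by rw [h]; trivial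
    obtain ⟨i, rfl⟩ := Subgroup.mem_zpowers_iff.mp hx
    obtain ⟨j, rfl⟩ := Subgroup.mem_zpowers_iff.mp hy
    exact ((Commute.refl a).zpow_zpow i j).eq
  -- the element of order four
  obtain ⟨u, hu⟩ : ∃ u : G, u = a ^ (2 ^ l) := ⟨_, rfl⟩
  have huU : u ∈ Subgroup.zpowers a := by rw [hu]; exact Subgroup.npow_mem_zpowers a _
  have huo : orderOf u = 4 := by
    rw [hu, orderOf_pow_of_dvd (by positivity) (by rw [ha]; exact pow_dvd_pow 2 (by omega)), ha,
      Nat.pow_div (by omega) (by norm_num)]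
    have : l + 2 - l = 2 := by omega
    rw [this]
  have huN : (Subgroup.zpowers u).Normal := by
    constructor
    intro x hx g
    obtain ⟨k, rfl⟩ := Subgroup.mem_zpowers_iff.mp hx
    rw [← conj_zpow]
    apply Subgroup.zpow_mem
    rw [hu, ← conj_pow]
    obtain ⟨j, hj⟩ := Subgroup.mem_zpowers_iff.mp (hUn.conj_mem a haU g)
    rw [← hj, Subgroup.mem_zpowers_iff]
    exact ⟨j, by rw [← zpow_natCast, ← zpow_natCast, ← zpow_mul, ← zpow_mul, mul_comm]⟩
  have hu4 : u ^ 4 = 1 := by rw [← huo, pow_orderOf_eq_one]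
  have hu22 : (u ^ 2) ^ 2 = 1 := by rw [← pow_mul]; exact hu4
  have hu2ne : u ^ 2 ≠ 1 := by
    apply pow_ne_one_of_lt_orderOf (by norm_num)
    rw [huo]; norm_num
  have hu1 : u ≠ 1 := by
    rintro rfl
    rw [orderOf_one] at huo
    omega
  have hu3 : u ^ 2 * u = u⁻¹ := by
    apply eq_inv_of_mul_eq_one_left
    rw [← pow_succ, ← pow_succ]; exact hu4
  have hconj_u : ∀ g : G, g * u * g⁻¹ = u ∨ g * u * g⁻¹ = u⁻¹ := by
    intro g
    have h1 : g * u * g⁻¹ ∈ Subgroup.zpowers u := huN.conj_mem u (Subgroup.mem_zpowers u) g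
    obtain ⟨i, hi⟩ := Subgroup.mem_zpowers_iff.mp h1
    rcases Int.even_or_odd' i with ⟨j, rfl | rfl⟩
    · exfalso
      have h2 : (g * u * g⁻¹) ^ 2 = 1 := by
        rw [← hi, ← zpow_natCast, ← zpow_mul]
        have h4 : (2 * j * ((2 : ℕ) : ℤ)) = ((4 : ℕ) : ℤ) * j := by push_cast; ring
        rw [h4, zpow_mul, zpow_natCast, hu4, one_zpow]
      rw [conj_pow] at h2
      have h3 : u ^ 2 = g⁻¹ * (g * u ^ 2 * g⁻¹) * g := by group
      rw [h2] at h3
      apply hu2ne
      rw [h3]; group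
    · have h2 : u ^ (2 * j + 1) = (u ^ 2) ^ j * u := by
        rw [zpow_add, zpow_one, zpow_mul]
        norm_cast
      rw [h2] at hi
      rcases zpow_eq_one_or_self_of_sq hu22 j with h | h
      · left
        rw [← hi, h, one_mul]
      · right
        rw [← hi, h, hu3]
  have hu2c : ∀ g : G, g * u ^ 2 = u ^ 2 * g := by
    intro g
    have h1 : g * u ^ 2 * g⁻¹ = u ^ 2 := by
      rw [← conj_pow]
      rcases hconj_u g with h | h
      · rw [h]
      · rw [h, inv_pow]
        apply inv_eq_of_mul_eq_one_left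
        rw [← pow_two]; exact hu22
    calc g * u ^ 2 = g * u ^ 2 * g⁻¹ * g := by group
      _ = u ^ 2 * g := by rw [h1]
  have hCn : (Subgroup.centralizer ({u} : Set G)).Normal := by
    constructor
    intro x hx g
    rw [Subgroup.mem_centralizer_singleton_iff] at hx ⊢
    have hw : x * (g⁻¹ * u * g) = (g⁻¹ * u * g) * x := by
      have h1 := hconj_u g⁻¹
      rw [inv_inv] at h1
      rcases h1 with h | h
      · rw [h, hx]
      · rw [h]
        have : Commute x u⁻¹ := (show Commute x u from hx).inv_right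
        exact this.eq
    calc g * x * g⁻¹ * u = g * (x * (g⁻¹ * u * g)) * g⁻¹ := by group
      _ = g * ((g⁻¹ * u * g) * x) * g⁻¹ := by rw [hw]
      _ = u * (g * x * g⁻¹) := by group
  have hu2o : orderOf (u ^ 2) = 2 := orderOf_eq_prime hu22 hu2ne
  have hCcard : Nat.card G ≤ Nat.card (Subgroup.centralizer ({u} : Set G)) * 2 := by
    have h1 := card_le_card_centralizer_mul u (Subgroup.zpowers (u ^ 2))
      (by
        rw [Subgroup.zpowers_le, Subgroup.mem_center_iff]
        exact hu2c)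
      (by
        intro x
        rcases hconj_u x with h | h
        · rw [h, mul_inv_cancel]; exact Subgroup.one_mem _
        · rw [h]
          have : u⁻¹ * u⁻¹ = (u ^ 2)⁻¹ := by group
          rw [this]
          exact Subgroup.inv_mem _ (Subgroup.mem_zpowers _))
    rwa [Nat.card_zpowers, hu2o] at h1
  have hUC : Subgroup.zpowers a ≤ Subgroup.centralizer ({u} : Set G) := by
    rw [Subgroup.zpowers_le, Subgroup.mem_centralizer_singleton_iff, hu]
    exact ((Commute.refl a).pow_right _).eq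
  have hUcard : Nat.card (Subgroup.zpowers a) = 2 ^ (l + 2) := by rw [Nat.card_zpowers, ha]
  by_cases hUeq : Subgroup.zpowers a = Subgroup.centralizer ({u} : Set G)
  · -- `⟨a⟩` has index two
    have hidx : (Subgroup.zpowers a).index = 2 := by
      have h1 := (Subgroup.zpowers a).card_mul_index
      rw [← hUeq, hUcard] at hCcard
      rw [hUcard] at h1
      have h3 : (Subgroup.zpowers a).index ≠ 1 := fun h => hUtop (Subgroup.index_eq_one.mp h)
      have h4 : (Subgroup.zpowers a).index ≠ 0 := Subgroup.index_ne_zero_of_finite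
      have h5 : 2 ^ (l + 2) * (Subgroup.zpowers a).index ≤ 2 ^ (l + 2) * 2 := by
        rw [h1]; exact hCcard
      have h6 : (Subgroup.zpowers a).index ≤ 2 := Nat.le_of_mul_le_mul_left h5 (by positivity)
      omega
    have hcardG : Nat.card G = 2 ^ (l + 2 + 1) := by
      have h1 := (Subgroup.zpowers a).card_mul_index
      rw [hUcard, hidx] at h1
      rw [← h1]; ring
    by_cases h4 : (commutator G).index = 4
    · left
      refine ⟨hcardG, ?_⟩
      obtain ⟨m, a₁, b₁, hm, hcard₁, ha₁, hb₁, hrel, hidx₁, hz₁, hcen⟩ :=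
        maximal_class_structure_center G hG h4 hcomm
      haveI : NeZero (2 ^ m) := ⟨by positivity⟩
      haveI : NeZero (2 ^ (m - 1)) := ⟨by positivity⟩
      rcases hrel with ⟨hba, hb2⟩ | ⟨hba, hb2⟩ | ⟨hm3, hba, hb2⟩
      · left
        exact ⟨2 ^ m, nonempty_mulEquiv_dihedralGroup (2 ^ m) a₁ b₁ ha₁ hb2 hba hb₁
          (by rw [hcard₁]; ring)⟩
      · right; left
        refine ⟨2 ^ (m - 1), ?_⟩
        have e1 : 2 ^ m = 2 * 2 ^ (m - 1) := by
          rw [← pow_succ']; congr 1; omega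
        exact nonempty_mulEquiv_quaternionGroup (2 ^ (m - 1)) a₁ b₁ (by rw [ha₁, e1]) hb2 hba hb₁
          (by rw [hcard₁, pow_succ, e1]; ring)
      · right; right
        have hb1 : b₁ ≠ 1 := by
          rintro rfl
          exact hb₁ (Subgroup.one_mem _)
        exact ⟨m, hm3, hcard₁, a₁, b₁, ha₁, orderOf_eq_prime hb2 hb1, hba⟩
    · right
      obtain ⟨hl, b, hbA, hb2, hba⟩ := modular_structure a l ha hidx hcomm h4
      exact ⟨l, b, hl, rfl, hbA, hb2, hba⟩
  · right
    haveI := hCn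
    obtain ⟨M', hM'n, hNM', hM'C, hM'card⟩ := exists_normal_step hG (Subgroup.zpowers a) _ hUC hUeq
    haveI := hM'n
    rw [hUcard] at hM'card
    have haM' : a ∈ M' := hNM' haU
    have hM'N : ¬ M' ≤ Subgroup.zpowers a := by
      intro h
      have := Subgroup.card_le_of_le h
      rw [hM'card, hUcard] at this
      have : 0 < 2 ^ (l + 2) := by positivity
      omega
    have hab : ¬ IsMulCommutative ↥M' := by
      intro h
      apply hM'N
      intro x hx
      apply hcent
      have h1 := h.is_comm.comm (⟨x, hx⟩ : ↥M') ⟨a, haM'⟩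
      exact congrArg Subtype.val h1
    have hna' : commutator ↥M' ≠ ⊥ := by
      intro h
      apply hab
      have h1 := (commutator_eq_bot_iff_center_eq_top ↥M').mp h
      refine ⟨⟨fun x y => ?_⟩⟩
      have hy : y ∈ Subgroup.center ↥M' := by rw [h1]; trivial
      exact Subgroup.mem_center_iff.mp hy x
    have h2' : IsPGroup 2 ↥M' := hG.to_subgroup M'
    have ha' : orderOf (⟨a, haM'⟩ : ↥M') = 2 ^ (l + 2) := by
      rw [Subgroup.orderOf_mk, ha]
    have hidx' : (Subgroup.zpowers (⟨a, haM'⟩ : ↥M')).index = 2 := by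
      have h1 := (Subgroup.zpowers (⟨a, haM'⟩ : ↥M')).card_mul_index
      rw [Nat.card_zpowers, ha', hM'card] at h1
      exact Nat.eq_of_mul_eq_mul_left (by positivity) h1
    have hu'c : (⟨u, hNM' huU⟩ : ↥M') ∈ Subgroup.center ↥M' := by
      rw [Subgroup.mem_center_iff]
      intro x
      apply Subtype.ext
      exact Subgroup.mem_centralizer_singleton_iff.mp (hM'C x.2)
    by_cases h4 : (commutator ↥M').index = 4
    · exfalso
      obtain ⟨m, a₁, b₁, hm, hcard₁, ha₁, hb₁, hrel, hidx₁, hz₁, hcen⟩ :=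
        maximal_class_structure_center ↥M' h2' h4 hna'
      rcases hcen _ hu'c with h | h
      · exact hu1 (congrArg Subtype.val h)
      · have h5 : (⟨u, hNM' huU⟩ : ↥M') ^ 2 = 1 := by
          rw [h, ← pow_mul, ← pow_succ, show m - 1 + 1 = m by omega, ← ha₁, pow_orderOf_eq_one]
        have h6 : u ^ 2 = 1 := congrArg Subtype.val h5
        exact hu2ne h6
    · obtain ⟨hl, b', hb'A, hb'2, hb'a⟩ :=
        modular_structure (⟨a, haM'⟩ : ↥M') l ha' hidx' hna' h4
      refine ⟨l, (b' : G), hl, rfl, ?_, congrArg Subtype.val hb'2, congrArg Subtype.val hb'a⟩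
      intro h
      apply hb'A
      obtain ⟨i, hi⟩ := Subgroup.mem_zpowers_iff.mp h
      exact Subgroup.mem_zpowers_iff.mpr ⟨i, Subtype.ext (by rw [Subgroup.coe_zpow]; exact hi)⟩

end Cfsg.Agent.Lib.Helper73
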